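import Cfsg.Agent.H8.U62.Main

/-!
# Choosing generators of the two fields
-/

set_option autoImplicit false
set_option linter.unusedSectionVars false
set_option maxHeartbeats 1000000

namespace Cfsg.Agent.H8.U62

theorem center_le_center_sub {F : Type} [Setup F] (i : Fin 3) :
    Subgroup.center (sub (F := F) i) = (Subgroup.center (SU6 F)).subgroupOf (sub i) := by
  refine le_antisymm (fun x hx => ?_) fun x hx => Subgroup.mem_center_iff.2 fun y =>
    Subtype.ext (Subgroup.mem_center_iff.1 hx y.1)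
  rw [← ker_rho]
  refine mem_ker_rho.2 fun j => ?_
  -- a central element fixes the standard frame and hence every frame of the orbit
  have hcomm : x.1 * subRep i j = subRep i j * x.1 :=
    (congrArg Subtype.val (Subgroup.mem_center_iff.1 hx ⟨_, subRep_mem i j⟩)).symm
  have hs : x.1 ∈ stab := by
    show fr x.1 = fr 1
    have hfix : ∀ k, ∃ l, act x.1 (p0 k) = p0 l := by
      intro k
      rcases fixed_points (act x.1 (p0 k)) with ⟨l, hl⟩ | ⟨d, hd⟩
      · exact ⟨l, Fin.ext hl.symm⟩
      · exfalso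
        obtain ⟨y, hy, hyA⟩ := real_dGenC (F := F) d.1
        refine hd ?_
        rw [← act_val y hyA, ← act_mul]
        have hyK : y ∈ sub (F := F) i := monoE_le_sub i (diagG_le_monoE hy)
        have e : y * x.1 = x.1 * y := congrArg Subtype.val (Subgroup.mem_center_iff.1 hx ⟨y, hyK⟩)
        obtain ⟨hys, hyd⟩ := mem_diagG.1 hy
        have e2 : act y (p0 k) = p0 k := by
          rw [permFun_spec ⟨_, hys⟩, show permFun ⟨_, hys⟩ k = perm ⟨_, hys⟩ k from rfl,
            MonoidHom.mem_ker.1 hyd]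
          rfl
        rw [e, act_mul, e2]
    refine Finset.eq_of_subset_of_card_le (fun a ha => ?_) (by rw [card_fr, card_fr])
    obtain ⟨k, -, rfl⟩ := Finset.mem_image.1 ha
    obtain ⟨l, hl⟩ := hfix k
    exact Finset.mem_image.2 ⟨l, Finset.mem_univ _, by rw [act_one, hl]⟩
  rw [hcomm, fr_mul_stab _ hs]

/-- Three classes of the triple cover of `PSU 4`. -/
theorem three_classes (F : Type) [Setup F] (L : Type) [Setup9 L] :
    ∃ K₁ K₂ K₃ : Subgroup (SU6 F),
      (∀ K ∈ [K₁, K₂, K₃], Nat.card (Subgroup.center K) = 3 ∧ Nonempty (K ⧸ Subgroup.center K ≃* PSU 4 L 3)) ∧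
      (¬ ∃ g : SU6 F, K₁.map (MulAut.conj g).toMonoidHom = K₂) ∧
      (¬ ∃ g : SU6 F, K₁.map (MulAut.conj g).toMonoidHom = K₃) ∧
      (¬ ∃ g : SU6 F, K₂.map (MulAut.conj g).toMonoidHom = K₃) ∧
      ∀ K : Subgroup (SU6 F), Nat.card (Subgroup.center K) = 3 →
        Nonempty (K ⧸ Subgroup.center K ≃* PSU 4 L 3) →
        ∃ g : SU6 F, K.map (MulAut.conj g).toMonoidHom = K₁ ∨ K.map (MulAut.conj g).toMonoidHom = K₂ ∨
          K.map (MulAut.conj g).toMonoidHom = K₃ := by
  have hgood : ∀ i : Fin 3, Nat.card (Subgroup.center (sub (F := F) i)) = 3 ∧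
      Nonempty (sub (F := F) i ⧸ Subgroup.center (sub (F := F) i) ≃* PSU 4 L 3) := by
    intro i
    refine ⟨?_, ?_⟩
    · rw [center_le_center_sub, Nat.card_congr (Subgroup.subgroupOfEquivOfLe (center_le_sub i)).toEquiv,
        card_center]
    · obtain ⟨φ⟩ := sub_mod_center_iso (F := F) (L := L) i
      exact ⟨(QuotientGroup.quotientMulEquivOfEq (center_le_center_sub i)).trans φ⟩
  refine ⟨sub 0, sub 1, sub 2, ?_, ?_, ?_, ?_, fun K hZ hφ => ?_⟩
  · intro K hK
    simp only [List.mem_cons, List.not_mem_nil, or_false] at hK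
    rcases hK with rfl | rfl | rfl
    · exact hgood 0
    · exact hgood 1
    · exact hgood 2
  · rintro ⟨g, hg⟩; exact absurd (sub_conj_eq hg) (by decide)
  · rintro ⟨g, hg⟩; exact absurd (sub_conj_eq hg) (by decide)
  · rintro ⟨g, hg⟩; exact absurd (sub_conj_eq hg) (by decide)
  · obtain ⟨g, i, hg⟩ := exists_conj_eq_sub K hZ hφ
    refine ⟨g, ?_⟩
    match i with
    | ⟨0, _⟩ => exact Or.inl hg
    | ⟨1, _⟩ => exact Or.inr (Or.inl hg)
    | ⟨2, _⟩ => exact Or.inr (Or.inr hg)

theorem exists_om {F : Type} [Field F] [Fintype F] (hF : Fintype.card F = 4) :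
    ∃ om : F, om * om = om + 1 ∧ (1 : F) + 1 = 0 := by
  classical
  have h4 : ((Fintype.card F : ℕ) : F) = 0 := Nat.cast_card_eq_zero F
  rw [hF] at h4
  have h2 : (1 : F) + 1 = 0 := by
    have h' : ((1 : F) + 1) * (1 + 1) = 0 := by
      rw [← h4]; norm_num
    rcases mul_eq_zero.1 h' with h | h <;> exact h
  obtain ⟨u, hu⟩ : ∃ u : F, u ∉ ({0, 1} : Finset F) := by
    by_contra h
    push Not at h
    have := Finset.card_le_card (fun x _ => h x : (Finset.univ : Finset F) ⊆ {0, 1})
    rw [Finset.card_univ, hF] at this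
    have h' : ({0, 1} : Finset F).card ≤ 2 := Finset.card_le_two
    omega
  simp only [Finset.mem_insert, Finset.mem_singleton, not_or] at hu
  refine ⟨u, ?_, h2⟩
  have h3 : u ^ 3 = 1 := by
    have := FiniteField.pow_card_sub_one_eq_one u hu.1
    rwa [hF] at this
  have h5 : (u - 1) * (u * u + u + 1) = 0 := by linear_combination h3
  rcases mul_eq_zero.1 h5 with h | h
  · exact absurd (sub_eq_zero.1 h) hu.2
  · linear_combination h - (u + 1) * h2

theorem exists_im {L : Type} [Field L] [Fintype L] (hL : Fintype.card L = 9) : ∃ im : L, im * im = -1 := by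
  obtain ⟨c, hc⟩ : IsSquare (-1 : L) := by
    rw [FiniteField.isSquare_neg_one_iff, hL]
    norm_num
  exact ⟨c, hc.symm⟩

end Cfsg.Agent.H8.U62
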