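import Cfsg.Agent.H8.U62.Code
import Cfsg.Agent.H8.U62.Data

/-!
# Boolean checks on the codes
-/

set_option autoImplicit false

namespace Cfsg.Agent.H8.U62

/-- The point of a vector. -/
def ptC (v : ℕ) : ℕ := Nat.land (ptTab >>> (10 * Nat.land v 4095)) 1023

/-- The vector of a point. -/
def repC (i : ℕ) : ℕ := Nat.land (repTab >>> (12 * i)) 4095

/-- The frame of a matrix as a mask of points. -/
def frmC (A : ℕ) : ℕ :=
  (List.range 6).foldr (fun j m => Nat.lor (1 <<< ptC (colC A j)) m) 0

/-- Elements of a tree, each a generator times an earlier one. -/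
def bld (gens : List ℕ) : List (ℕ × ℕ) → List ℕ → List ℕ
  | [], acc => acc
  | (p, g) :: t, acc => force (mmC (gens.getD g oneC) (acc.getD p oneC)) fun A => bld gens t (acc ++ [A])

/-- All keys differ. -/
def keysOK : List ℕ → ℕ → Bool
  | [], _ => true
  | m :: l, acc => force (m % keyMod) fun k =>
      !(acc.testBit k) && force (Nat.lor acc (1 <<< k)) fun acc' => keysOK l acc'

/-- The list consists of distinct numbers below 243. -/
def isPerm243 (l : List ℕ) (r : List ℕ) : Bool :=
  Nat.beq l.length 243 && (List.range 243).all fun e =>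
    Nat.beq (r.getD (l.getD e 243) 243) e && Nat.blt (l.getD e 243) 243

/-- The generators of the monomial subgroup. -/
def genC : List ℕ := genW.map wordC

/-- The element that is outside. -/
def tauC : ℕ := wordC tauW

/-- An element of the monomial group. -/
def monC (a b : ℕ) : ℕ := mmC (dTab.getD a oneC) (pTab.getD b oneC)

/-- The diagonal matrix with given exponents. -/
def diagE (e : ℕ) : ℕ :=
  let ex := fun j => if j < 5 then e / 3 ^ j % 3
    else (3 - (e % 3 + e / 3 % 3 + e / 9 % 3 + e / 27 % 3 + e / 81 % 3) % 3) % 3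
  (List.range 6).foldr (fun j m => Nat.lor (((ex j + 1) <<< (2 * j)) <<< (12 * j)) m) 0

/-- The generators of the diagonal group. -/
def dGenC : List ℕ :=
  dGen.map fun q => mmC (pTab.getD q.1 oneC) (mmC (genC.getD 0 oneC) (pTab.getD q.2 oneC))

/-- The table of points is correct. -/
def pointsOK : Bool :=
  ((List.range 4096).all fun v => bif unitC v then force (ptC v) fun i =>
      Nat.blt i 672 && Nat.beq (ptC (sW v)) i && force (repC i) fun w =>
        (Nat.beq w v || Nat.beq w (sW v) || Nat.beq w (sW (sW v)))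
    else true) &&
  ((List.range 672).all fun i => unitC (repC i) && Nat.beq (ptC (repC i)) i)

/-- The tables of the monomial group are correct. -/
def monOK : Bool :=
  beqList (bld genC pTree [oneC]) pTab && Nat.beq pTab.length 360 &&
  beqList (bld dGenC dTree [oneC]) dTab && Nat.beq dTab.length 243 &&
  isPerm243 dPos dExp &&
  ((List.range 243).all fun a => Nat.beq (dTab.getD a 0) (diagE (dExp.getD a 243))) &&
  ((List.range 3).all fun g => (List.range 360).all fun b =>
    let q := (genP.getD g []).getD b (243, 360)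
    Nat.blt q.1 243 && Nat.blt q.2 360 && Nat.beq (mmC (genC.getD g oneC) (pTab.getD b 0)) (monC q.1 q.2)) &&
  ((List.range 3).all fun g =>
    let q := tauP.getD g (243, 360)
    Nat.blt q.1 243 && Nat.blt q.2 360 &&
      Nat.beq (mmC tauC (mmC (genC.getD g oneC) tauC)) (monC q.1 q.2)) &&
  Nat.beq (mmC tauC tauC) oneC
where
  /-- Equality of lists. -/
  beqList : List ℕ → List ℕ → Bool
    | [], [] => true
    | a :: l, b :: m => Nat.beq a b && beqList l m
    | _, _ => false

/-- The fifteen transpositions. -/
def swapsOK : Bool :=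
  (List.range 15).all fun n =>
    let q := swapP.getD n (243, 360)
    Nat.blt q.1 243 && Nat.blt q.2 360 && Nat.beq (mmC (atomC (swapV.getD n 0)) tauC) (monC q.1 q.2)
where
  /-- The centres of the fifteen transpositions. -/
  swapV : List ℕ := ((List.range 6).flatMap fun i =>
    (List.range 6).flatMap fun j => if i < j then [(1 <<< (2 * i)) + (1 <<< (2 * j))] else [])

/-- Scalar index. -/
def isZ (x : ℕ) : Bool := zIdx.any fun z => Nat.beq x (dTab.getD z 0)

/-- A step towards a distinguished element. -/
def commStep (x : ℕ) (u u' : ℕ) : ℕ :=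
  mmC (mmC (pTab.getD u oneC) (mmC x (pTab.getD u' oneC))) (mmC x x)

/-- Irreducibility, faithfulness and centraliser facts for the monomial group. -/
def actOK : Bool :=
  ((List.range 243).all fun a =>
    let x := dTab.getD a 0
    isZ x ||
      (let q := irrW.getD a (0, 0, 0, 0)
       Nat.beq (mmC (pTab.getD q.1 oneC) (pTab.getD q.2.1 oneC)) oneC &&
       Nat.beq (mmC (pTab.getD q.2.2.1 oneC) (pTab.getD q.2.2.2 oneC)) oneC &&
       force (commStep x q.1 q.2.1) fun y => force (commStep y q.2.2.1 q.2.2.2) fun z =>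
         (Nat.beq z (genC.getD 0 0) || Nat.beq z (mmC (genC.getD 0 0) (genC.getD 0 0))))) &&
  ((List.range 359).all fun b' =>
    let q := pKer.getD (b' + 1) (0, 0)
    Nat.blt q.2 243 && Nat.beq (mmC (pTab.getD (b' + 1) oneC) (pTab.getD q.1 oneC)) oneC &&
      !(isZ (commStep (dTab.getD q.2 0) (b' + 1) q.1))) &&
  ((List.range 243).all fun a =>
    let x := dTab.getD a 0
    isZ x || !(Nat.beq (mmC x (genC.getD 1 0)) (mmC (genC.getD 1 0) x) &&
      Nat.beq (mmC x (genC.getD 2 0)) (mmC (genC.getD 2 0) x))) &&
  Nat.beq zIdx.length 3 && (zIdx.all fun z => Nat.blt z 243) &&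
  Nat.beq sylP.length 9 && (sylP.all fun w => Nat.blt w 360) && Nat.beq (pTab.getD (sylP.getD 0 0) 0) oneC &&
  ((List.range 9).all fun w => (List.range 9).all fun w' =>
    force (mmC (pTab.getD (sylP.getD w 0) 0) (pTab.getD (sylP.getD w' 0) 0)) fun y =>
      sylP.any fun w'' => Nat.beq y (pTab.getD w'' 0)) &&
  ((List.range 8).all fun w => force (pTab.getD (sylP.getD (w + 1) 0) 0) fun y =>
    Nat.blt (dTab.filter fun x => Nat.beq (mmC x y) (mmC y x)).length 28)

/-- One step of the enumeration of cliques. -/
def clStep (f : List ℕ → List (List ℕ)) : List ℕ → List (List ℕ)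
  | [] => []
  | a :: l => force (repC a) fun u =>
      (f (l.filter fun b => orthC u (repC b))).map (a :: ·) ++ clStep f l

/-- Points in increasing order orthogonal to all earlier ones. -/
def cliques : ℕ → List ℕ → List (List ℕ)
  | 0 => fun _ => [[]]
  | k + 1 => clStep (cliques k)

/-- Every frame through a chosen point is listed. -/
def frameOK (s : ℕ) (dat : List (ℕ × ℕ × ℕ)) : Bool :=
  force (ptRep.getD s 0) fun p => force (repC p) fun u =>
    let cl := cliques 5 ((List.range 672).filter fun b => orthC u (repC b))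
    Nat.beq cl.length dat.length &&
    (cl.zip dat).all fun c => Nat.blt c.2.1 42 && Nat.blt c.2.2.1 243 && Nat.blt c.2.2.2 360 &&
      Nat.beq ((p :: c.1).foldr (fun i m => Nat.lor (1 <<< i) m) 0)
        (frmC (mmC (monC c.2.2.1 c.2.2.2) (repT.getD c.2.1 0)))

/-- Representative points. -/
def ptMoveOK : Bool :=
  (List.range 672).all fun i =>
    let q := ptMove.getD i (3, 0, 0)
    Nat.blt q.1 3 && Nat.blt q.2.1 243 && Nat.blt q.2.2 360 &&
      Nat.beq (ptC (mvC (monC q.2.1 q.2.2) (repC (ptRep.getD q.1 0)))) i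

/-- The representatives of the frames are given by words. -/
def repsOK : Bool :=
  Nat.beq repT.length 42 && ((List.range 42).all fun r => Nat.beq (wordC (repW.getD r [])) (repT.getD r 0)) &&
    Nat.beq (repT.getD 0 0) oneC &&
    ((List.range 41).all fun r => (bigReps.any fun q => Nat.beq q.1 (r + 1)) ||
      (smallReps.any fun q => Nat.beq q (r + 1)))

/-- The generators of the subgroup with number `i`. -/
def subGenC (i : ℕ) : List ℕ := genC ++ [subG.getD i 0]

/-- An element of the subgroup with number `i`. -/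
def subElC (i : ℕ) (q : ℕ × ℕ × ℕ) : ℕ := mmC ((subT.getD i []).getD q.1 0) (monC q.2.1 q.2.2)

/-- Bounds on the indices of an element. -/
def subIdxOK (q : ℕ × ℕ × ℕ) : Bool := Nat.blt q.1 112 && Nat.blt q.2.1 243 && Nat.blt q.2.2 360

/-- The subgroup with number `i`. -/
def subOK (i : ℕ) : Bool :=
  Nat.beq (wordC (subW.getD i [])) (subG.getD i 0) &&
  monOK.beqList (bld (subGenC i) (subTree.getD i []) [oneC]) (subT.getD i []) &&
  Nat.beq (subT.getD i []).length 112 &&
  keysOK ((subT.getD i []).map frmC) 0 &&
  ((List.range 4).all fun g => (List.range 112).all fun j =>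
    let q := ((subSch.getD i []).getD g []).getD j (112, 0, 0)
    subIdxOK q && Nat.beq (mmC ((subGenC i).getD g 0) ((subT.getD i []).getD j 0)) (subElC i q) &&
      Nat.beq (((subPerm.getD i []).getD g []).getD j 112) q.1) &&
  ((List.range 4).all fun g =>
    let q := (subTau.getD i []).getD g (112, 0, 0)
    subIdxOK q && Nat.beq (mmC tauC (mmC ((subGenC i).getD g 0) tauC)) (subElC i q)) &&
  ((subT.getD i []).any fun T => !(Nat.beq (frmC (mmC (genC.getD 0 0) T)) (frmC T))) &&
  ((List.range 3).all fun j => Nat.beq i j ||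
    force (frmC (subG.getD i 0)) fun m => !((subT.getD j []).any fun T => Nat.beq (frmC T) m))

/-- Enough distinct frames along a tree. -/
def treeOK (gens : List ℕ) (t : List (ℕ × ℕ)) (base n : ℕ) : Bool :=
  Nat.ble n (t.length + 1) && keysOK ((bld gens t [oneC]).map fun A => frmC (mmC A base)) 0

/-- Orbits that are too long inside the monomial group. -/
def bigOK : Bool := bigReps.all fun q => treeOK genC q.2 (repT.getD q.1 0) 113

/-- The code of an extending element. -/
def extC (r e : ℕ) : ℕ := wordC (repW.getD r [] ++ bif Nat.beq e 1 then tauW else [])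

/-- Each extension of the monomial group is too large or is one of the three subgroups. -/
def extOK : Bool :=
  (extBig.all fun q => treeOK (genC ++ [extC q.1 q.2.1]) q.2.2 oneC 113) &&
  (extOdd.all fun q =>
    let gens := genC ++ [extC q.1 q.2.1]
    let els := bld gens q.2.2.1 [oneC]
    let f := q.2.2.2
    treeOK gens q.2.2.1 oneC 57 && Nat.blt f.1 4 && Nat.blt f.2.1 els.length && Nat.blt f.2.2.1 els.length &&
      Nat.blt f.2.2.2.1 243 && Nat.blt f.2.2.2.2 360 &&
      Nat.beq (mmC (gens.getD f.1 0) (els.getD f.2.1 0))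
        (mmC (els.getD f.2.2.1 0) (mmC tauC (monC f.2.2.2.1 f.2.2.2.2)))) &&
  (extIn.all fun q =>
    force (extC q.1 q.2.1) fun A =>
      Nat.blt q.2.2.1 3 && subIdxOK q.2.2.2.1 && Nat.beq A (subElC q.2.2.1 q.2.2.2.1) &&
        treeOK (genC ++ [A]) q.2.2.2.2 oneC 112) &&
  smallReps.all fun r => (List.range 2).all fun e =>
    (extBig.any fun q => Nat.beq q.1 r && Nat.beq q.2.1 e) ||
    (extOdd.any fun q => Nat.beq q.1 r && Nat.beq q.2.1 e) ||
    (extIn.any fun q => Nat.beq q.1 r && Nat.beq q.2.1 e)

/-- Orbits of the three subgroups on small representatives. -/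
def conjOK : Bool :=
  (conjBig.all fun q => Nat.blt q.2.1 3 && treeOK (subGenC q.2.1) q.2.2 (repT.getD q.1 0) 113) &&
  (conjIn.all fun q => Nat.blt q.2.1 3 && Nat.blt q.2.2 112 &&
    Nat.beq (frmC (repT.getD q.1 0)) (frmC ((subT.getD q.2.1 []).getD q.2.2 0))) &&
  smallReps.all fun r => (List.range 3).all fun i =>
    (conjBig.any fun q => Nat.beq q.1 r && Nat.beq q.2.1 i) ||
    (conjIn.any fun q => Nat.beq q.1 r && Nat.beq q.2.1 i)

theorem points_ok : pointsOK = true := by decide +kernel

theorem mon_ok : monOK = true := by decide +kernel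

theorem swaps_ok : swapsOK = true := by decide +kernel

theorem act_ok : actOK = true := by decide +kernel

end Cfsg.Agent.H8.U62
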