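import Cfsg.Agent.H8.U62.Subs

/-!
# The three subgroups modulo scalars as permutation groups of degree 112
-/

set_option autoImplicit false
set_option linter.unusedSectionVars false
set_option maxRecDepth 20000
set_option maxHeartbeats 1000000

namespace Cfsg.Agent.H8.U62

open Matrix Setup

variable {F : Type} [Setup F]

theorem exists_act_index (i : Fin 3) (x : sub (F := F) i) (j : Fin 112) :
    ∃ k, fr (x.1 * subRep (F := F) i j) = fr (subRep (F := F) i k) := by
  obtain ⟨k, m, hm, e⟩ := exists_decomp i (mul_mem x.2 (subRep_mem i j))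
  exact ⟨k, by rw [e, fr_mul_monoE _ hm]⟩

/-- The action on the transversal. -/
noncomputable def idx (i : Fin 3) (x : sub (F := F) i) (j : Fin 112) : Fin 112 := (exists_act_index i x j).choose

theorem idx_spec (i : Fin 3) (x : sub (F := F) i) (j : Fin 112) :
    fr (x.1 * subRep (F := F) i j) = fr (subRep (F := F) i (idx i x j)) := (exists_act_index i x j).choose_spec

theorem idx_mul (i : Fin 3) (x y : sub (F := F) i) (j : Fin 112) : idx i (x * y) j = idx i x (idx i y j) := by
  refine fr_subRep_injective (F := F) i ?_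
  show fr (subRep (F := F) i (idx i (x * y) j)) = fr (subRep (F := F) i (idx i x (idx i y j)))
  rw [← idx_spec, ← idx_spec, Subgroup.coe_mul, mul_assoc, fr_mul, idx_spec, ← fr_mul]

theorem idx_one (i : Fin 3) (j : Fin 112) : idx i (1 : sub (F := F) i) j = j := by
  refine fr_subRep_injective (F := F) i ?_
  show fr (subRep (F := F) i (idx i 1 j)) = fr (subRep (F := F) i j)
  rw [← idx_spec, Subgroup.coe_one, one_mul]

/-- The permutation representation. -/
noncomputable def rho (i : Fin 3) : sub (F := F) i →* Equiv.Perm (Fin 112) where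
  toFun x :=
    { toFun := idx i x
      invFun := idx i x⁻¹
      left_inv := fun j => by rw [← idx_mul, inv_mul_cancel, idx_one]
      right_inv := fun j => by rw [← idx_mul, mul_inv_cancel, idx_one] }
  map_one' := Equiv.ext (idx_one i)
  map_mul' x y := Equiv.ext (idx_mul i x y)

theorem rho_gen (i : Fin 3) (g : Fin 4) (j : Fin 112) :
    (rho (F := F) i ⟨subGen i g, Subgroup.subset_closure ⟨g, rfl⟩⟩ j).1 = subPermFun i g j := by
  obtain ⟨k, m, hm, e, hp⟩ := exists_sch (F := F) i g j
  have : idx i ⟨subGen (F := F) i g, Subgroup.subset_closure ⟨g, rfl⟩⟩ j = k := by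
    refine fr_subRep_injective (F := F) i ?_
    show fr (subRep (F := F) i (idx i _ j)) = fr (subRep (F := F) i k)
    rw [← idx_spec, e, fr_mul_monoE _ hm]
  show (idx i _ j).1 = _
  rw [this, hp]

theorem diag_commute {x y : stab (F := F)} (hx : x ∈ diagS) (hy : y ∈ diagS) : x.1 * y.1 = y.1 * x.1 := by
  obtain ⟨a, ha, ea⟩ := exists_exp_of_mem_diagS hx
  obtain ⟨b, hb, eb⟩ := exists_exp_of_mem_diagS hy
  refine ext_mat ?_
  rw [mat_mul, mat_mul, ea, eb, matF_diagE ha, matF_diagE hb, Matrix.diagonal_mul_diagonal,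
    Matrix.diagonal_mul_diagonal]
  simp only [mul_comm]

theorem diag_cube {x : stab (F := F)} (hx : x ∈ diagS) : x.1 * (x.1 * x.1) = 1 := by
  obtain ⟨a, ha, ea⟩ := exists_exp_of_mem_diagS hx
  refine ext_mat ?_
  rw [mat_mul, mat_mul, mat_one, ea, matF_diagE ha, Matrix.diagonal_mul_diagonal, Matrix.diagonal_mul_diagonal,
    ← Matrix.diagonal_one]
  congr 1
  funext j
  rw [← mul_assoc, cube_eq_one (pow_ne_zero _ om_ne_zero)]

theorem mem_center_iff' (g : SU6 F) :
    g ∈ Subgroup.center (SU6 F) ↔ ∃ l : F, ∀ x, mat g *ᵥ x = l • x :=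
  H3.mem_center_SU_iff hF (by norm_num) g

theorem center_le_diag {g : SU6 F} (hg : g ∈ Subgroup.center (SU6 F)) :
    ∃ h : g ∈ stab, (⟨g, h⟩ : stab (F := F)) ∈ diagS := by
  obtain ⟨l, hl⟩ := (mem_center_iff' g).1 hg
  have hact : ∀ j, act g (p0 j) = p0 j := fun j => by
    rw [p0_eq (F := F), act_pt]
    refine Fin.ext ?_
    show ptF (mat g *ᵥ eF j) = ptF (eF j : Fin 6 → F)
    rw [hl, ptF_smul (eF_unit j)]
    rintro rfl
    have := unit_mulVec g (eF_unit (F := F) j)
    rw [hl] at this
    simp [hermForm] at this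
  have hs : g ∈ stab := by
    show fr g = fr 1
    simp only [fr, hact, act_one]
  refine ⟨hs, Equiv.ext fun j => p0_injective ?_⟩
  rw [show perm ⟨g, hs⟩ j = permFun ⟨g, hs⟩ j from rfl, ← permFun_spec, hact]
  rfl

theorem isZ_iff {g : SU6 F} {a : ℕ} (ha : a < 243) (hg : mat g = matF om (dTab.getD a 0)) :
    g ∈ Subgroup.center (SU6 F) ↔ isZ (dTab.getD a 0) = true := by
  rw [mon_facts.2.1.2 a ha, matF_diagE (dExp_lt a ha)] at hg
  have h1 : ∀ a < 243, (∀ j < 6, expD (dExp.getD a 243) j = expD (dExp.getD a 243) 0) ↔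
      isZ (dTab.getD a 0) = true := by decide +kernel
  rw [← h1 a ha, mem_center_iff']
  constructor
  · rintro ⟨l, hl⟩ j hj
    have hlj : ∀ j : Fin 6, (om : F) ^ expD (dExp.getD a 243) j.1 = l := fun j => by
      have := congrFun (hl (Pi.single j 1)) j
      simpa [hg, Matrix.mulVec_diagonal] using this
    exact om_pow_inj (by unfold expD; split <;> omega) (by unfold expD; split <;> omega)
      ((hlj ⟨j, hj⟩).trans (hlj 0).symm)
  · intro h
    refine ⟨om ^ expD (dExp.getD a 243) 0, fun x => ?_⟩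
    funext j
    rw [hg, Matrix.mulVec_diagonal, h j.1 j.2]
    rfl

theorem real_pTab_getD (b : ℕ) : Real (monoE (F := F)) (pTab.getD b oneC) := Real.getD real_pTab b

/-- A non-scalar diagonal element generates the first generator, up to conjugation and commutators. -/
theorem gen_zero_mem_of_diag {N : Subgroup (SU6 F)}
    (hN : ∀ m ∈ monoE, ∀ x ∈ N, m * x * m⁻¹ ∈ N) {x : stab (F := F)} (hx : x ∈ diagS) (hxN : x.1 ∈ N)
    (hz : x.1 ∉ Subgroup.center (SU6 F)) : wordG (genW.getD 0 []) ∈ N := by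
  obtain ⟨a, ha, hA⟩ := exists_idx_of_mem_diagS hx
  have h := act_ok
  simp only [actOK, Bool.and_eq_true, List.all_eq_true, List.mem_range, force_eq, Bool.or_eq_true] at h
  rcases h.1.1.1.1.1.1.1.1.1 a ha with hh | ⟨⟨h1, h2⟩, h3⟩
  · exact absurd ((isZ_iff ha hA).2 hh) hz
  · set q := irrW.getD a (0, 0, 0, 0)
    have step : ∀ (y : stab (F := F)) (c u u' : ℕ), y ∈ diagS → y.1 ∈ N → mat y.1 = matF om c →
        Nat.beq (mmC (pTab.getD u oneC) (pTab.getD u' oneC)) oneC = true →
        ∃ z : stab (F := F), z ∈ diagS ∧ z.1 ∈ N ∧ mat z.1 = matF om (commStep c u u') := by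
      intro y c u u' hy hyN hc hinv
      obtain ⟨p, hp, hpA⟩ := real_pTab_getD (F := F) u
      obtain ⟨p', hp', hpA'⟩ := real_pTab_getD (F := F) u'
      have hpp : p' = p⁻¹ := eq_inv_of_mul_eq_one_right (ext_mat (by
        rw [mat_mul, hpA, hpA', ← matF_mmC _ hom two, Nat.eq_of_beq_eq_true hinv, matF_oneC _ hom two, mat_one]))
      let ps : stab (F := F) := ⟨p, monoE_le_stab hp⟩
      have hn : (diagS (F := F)).Normal := MonoidHom.normal_ker _
      refine ⟨ps * y * ps⁻¹ * (y * y), mul_mem (hn.conj_mem _ hy ps) (mul_mem hy hy), ?_, ?_⟩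
      · exact mul_mem (hN p hp y.1 hyN) (mul_mem hyN hyN)
      · show mat (p * y.1 * p⁻¹ * (y.1 * y.1)) = _
        rw [← hpp, commStep, matF_mmC _ hom two, matF_mmC _ hom two, matF_mmC _ hom two, matF_mmC _ hom two,
          ← hpA, ← hpA', ← hc, mat_mul, mat_mul, mat_mul, mat_mul, Matrix.mul_assoc (mat p)]
    obtain ⟨y, hy, hyN, hyA⟩ := step x _ q.1 q.2.1 hx hxN hA h1
    obtain ⟨z, hzd, hzN, hzA⟩ := step y _ q.2.2.1 q.2.2.2 hy hyN hyA h2
    have hg : mat (wordG (genW.getD 0 []) : SU6 F) = matF om (genC.getD 0 0) := by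
      rw [mat_wordG]
      have : genC.getD 0 0 = wordC (genW.getD 0 []) := by decide +kernel
      rw [this]
    rcases h3 with h3 | h3
    · have : wordG (genW.getD 0 []) = z.1 := ext_mat (by rw [hg, hzA, Nat.eq_of_beq_eq_true h3])
      rw [this]; exact hzN
    · obtain ⟨hs, e⟩ := gen_perm (F := F) 0
      have hd : (⟨_, hs⟩ : stab (F := F)) ∈ diagS := by
        show perm _ = 1
        rw [e]; rfl
      have h2' : z.1 = wordG (genW.getD 0 []) * wordG (genW.getD 0 []) := ext_mat (by
        rw [hzA, mat_mul, hg, Nat.eq_of_beq_eq_true h3, matF_mmC _ hom two])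
      have h4 : z.1 * z.1 = (wordG (genW.getD 0 []) : SU6 F) := by
        rw [h2']
        have h5 := diag_cube hd
        simp only [Fin.val_zero] at h5
        calc _ = wordG (genW.getD 0 []) * (wordG (genW.getD 0 []) * wordG (genW.getD 0 [])) *
              (wordG (genW.getD 0 []) : SU6 F) := by group
          _ = _ := by rw [h5, one_mul]
      rw [← h4]; exact mul_mem hzN hzN

theorem center_le_sub (i : Fin 3) : Subgroup.center (SU6 F) ≤ sub i := fun g hg => by
  obtain ⟨h, hd⟩ := center_le_diag hg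
  exact monoE_le_sub i (diagS_le_monoE hd)

theorem mem_ker_rho {i : Fin 3} {x : sub (F := F) i} :
    x ∈ (rho i).ker ↔ ∀ j, fr (x.1 * subRep (F := F) i j) = fr (subRep (F := F) i j) := by
  constructor
  · intro h j
    rw [idx_spec, show idx i x j = rho i x j from rfl, MonoidHom.mem_ker.1 h]
    rfl
  · intro h
    refine MonoidHom.mem_ker.2 (Equiv.ext fun j => fr_subRep_injective (F := F) i ?_)
    show fr (subRep (F := F) i (idx i x j)) = fr (subRep (F := F) i j)
    rw [← idx_spec, h]

/-- The kernel consists of the scalars. -/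
theorem ker_rho (i : Fin 3) : (rho (F := F) i).ker = (Subgroup.center (SU6 F)).subgroupOf (sub i) := by
  refine le_antisymm (fun x hx => ?_) fun x hx => ?_
  · obtain ⟨N, hNdef⟩ : ∃ N : Subgroup (SU6 F), N = (rho (F := F) i).ker.map (sub i).subtype := ⟨_, rfl⟩
    have hmemN : ∀ y : SU6 F, y ∈ N ↔ ∃ z ∈ (rho (F := F) i).ker, z.1 = y := fun y => by
      rw [hNdef, Subgroup.mem_map]
      simp only [Subgroup.coe_subtype]
    have hN : ∀ m ∈ monoE, ∀ y ∈ N, m * y * m⁻¹ ∈ N := by
      intro m hm y hy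
      obtain ⟨z, hz, rfl⟩ := (hmemN y).1 hy
      have hn : (rho (F := F) i).ker.Normal := MonoidHom.normal_ker _
      refine (hmemN _).2 ⟨_, hn.conj_mem z hz ⟨m, monoE_le_sub i hm⟩, ?_⟩
      rw [Subgroup.coe_mul, Subgroup.coe_mul, Subgroup.coe_inv]
    have hd : ∀ d : stab (F := F), d ∈ diagS → d.1 ∈ N → d.1 ∈ Subgroup.center (SU6 F) := by
      intro d hd hdN
      by_contra hz
      obtain ⟨y, hy, e⟩ := (hmemN _).1 (gen_zero_mem_of_diag hN hd hdN hz)
      obtain ⟨T, hT, hne⟩ := (sub_facts i).2.2.2.1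
      obtain ⟨j, hj, rfl⟩ := List.getElem_of_mem hT
      rw [(sub_facts i).1.2.1] at hj
      have h1 := mem_ker_rho.1 hy ⟨j, hj⟩
      rw [show y.1 = wordG (genW.getD 0 []) from e] at h1
      refine hne ((fr_eq_iff ?_ ?_).1 h1)
      · have : genC.getD 0 0 = wordC (genW.getD 0 []) := by decide +kernel
        rw [mat_mul, mat_wordG, mat_subRep, matF_mmC _ hom two, this, List.getD_eq_getElem?_getD
          (l := subT.getD i.1 []), List.getElem?_eq_getElem]
        rfl
      · rw [mat_subRep, List.getD_eq_getElem?_getD (l := subT.getD i.1 []), List.getElem?_eq_getElem]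
        rfl
    have hxN : x.1 ∈ N := (hmemN _).2 ⟨x, hx, rfl⟩
    have hxs : x.1 ∈ monoE := by
      obtain ⟨j, m, hm, e⟩ := exists_decomp i x.2
      have h1 := mem_ker_rho.1 hx 0
      rw [subRep_zero, mul_one, e, fr_mul_monoE _ hm, ← subRep_zero i] at h1
      rw [e, fr_subRep_injective (F := F) i h1, subRep_zero, one_mul]
      exact hm
    obtain ⟨a, ha, b, hb, hA⟩ := exists_monC hxs
    have hget : ∀ {l : List ℕ} {n : ℕ}, n < l.length → l.getD n oneC = l.getD n 0 := fun hn => by
      rw [List.getD_eq_getElem?_getD, List.getD_eq_getElem?_getD, List.getElem?_eq_getElem hn]; rfl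
    obtain ⟨d, -, hdA⟩ := Real.getD (real_dTab (F := F)) a
    obtain ⟨p, hp, hpA⟩ := real_pTab_getD (F := F) b
    obtain ⟨hds, hdd⟩ := dTab_diag ha (hdA.trans (by rw [hget (by rw [mon_facts.1.2.2.2]; exact ha)]))
    have hxdp : x.1 = d * p := ext_mat (by rw [hA, monC, matF_mmC _ hom two, mat_mul, hdA, hpA])
    by_cases hb0 : b = 0
    · have hp1 : p = 1 := ext_mat (by
        rw [hpA, hb0, mat_one]
        have : pTab.getD 0 oneC = oneC := by decide +kernel
        rw [this, matF_oneC _ hom two])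
      rw [hp1, mul_one] at hxdp
      show x.1 ∈ Subgroup.center (SU6 F)
      rw [hxdp]
      exact hd ⟨d, hds⟩ hdd (hxdp ▸ hxN)
    · exfalso
      have h := act_ok
      simp only [actOK, Bool.and_eq_true, List.all_eq_true, List.mem_range, force_eq, Bool.not_eq_true'] at h
      have hh := h.1.1.1.1.1.1.1.1.2 (b - 1) (by omega)
      rw [show b - 1 + 1 = b by omega] at hh
      set q := pKer.getD b (0, 0)
      obtain ⟨⟨hq, hinv⟩, hz⟩ := hh
      have hq' := Nat.le_of_ble_eq_true hq
      obtain ⟨e, -, heA⟩ := Real.getD (real_dTab (F := F)) q.2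
      rw [hget (by rw [mon_facts.1.2.2.2]; exact hq')] at heA
      obtain ⟨hes, hed⟩ := dTab_diag hq' heA
      obtain ⟨p', hp', hpA'⟩ := real_pTab_getD (F := F) q.1
      have hpp : p' = p⁻¹ := eq_inv_of_mul_eq_one_right (ext_mat (by
        rw [mat_mul, hpA, hpA', ← matF_mmC _ hom two, Nat.eq_of_beq_eq_true hinv, matF_oneC _ hom two, mat_one]))
      let ps : stab (F := F) := ⟨p, monoE_le_stab hp⟩
      let es : stab (F := F) := ⟨e, hes⟩
      have hn : (diagS (F := F)).Normal := MonoidHom.normal_ker _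
      have hpe : ps * es * ps⁻¹ ∈ diagS := hn.conj_mem _ hed ps
      have hee : e * (e * e) = 1 := diag_cube hed
      have hconj : x.1 * e * x.1⁻¹ * e⁻¹ = p * e * p⁻¹ * (e * e) := by
        have h1 : d * (p * e * p⁻¹) = p * e * p⁻¹ * d := diag_commute hdd hpe
        rw [hxdp, inv_eq_of_mul_eq_one_right hee]
        calc d * p * e * (d * p)⁻¹ * (e * e) = d * (p * e * p⁻¹) * d⁻¹ * (e * e) := by group
          _ = _ := by rw [h1]; group
      have hmem : p * e * p⁻¹ * (e * e) ∈ N := by
        rw [← hconj]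
        have heM : e ∈ monoE := diagS_le_monoE (g := es) hed
        have : x.1 * (e * x.1⁻¹ * e⁻¹) ∈ N := mul_mem hxN (hN e heM _ (inv_mem hxN))
        simpa [mul_assoc] using this
      have hmd : ps * es * ps⁻¹ * (es * es) ∈ diagS := mul_mem hpe (mul_mem hed hed)
      have hc := hd _ hmd hmem
      obtain ⟨c, hc', hcA⟩ := exists_idx_of_mem_diagS hmd
      have hcode : matF (om : F) (dTab.getD c 0) = matF om (commStep (dTab.getD q.2 0) b q.1) := by
        rw [← hcA]
        show mat (p * e * p⁻¹ * (e * e)) = _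
        rw [← hpp, commStep, matF_mmC _ hom two, matF_mmC _ hom two, matF_mmC _ hom two, matF_mmC _ hom two,
          ← hpA, ← hpA', ← heA, mat_mul, mat_mul, mat_mul, mat_mul, Matrix.mul_assoc (mat p)]
      have hZ := (isZ_iff hc' hcA).1 hc
      have hzl : zIdx.all (fun z => Nat.blt z 243) = true := by decide +kernel
      obtain ⟨z, hzm, hze⟩ := List.any_eq_true.1 hZ
      rw [Nat.eq_of_beq_eq_true hze] at hcode
      have hcodeEq : commStep (dTab.getD q.2 0) b q.1 = dTab.getD z 0 := by
        have hb2 : ∀ b < 360, Nat.blt (pKer.getD b (0, 0)).2 243 = true →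
            ∀ z ∈ zIdx, frmC (commStep (dTab.getD (pKer.getD b (0, 0)).2 0) b (pKer.getD b (0, 0)).1) =
              frmC (dTab.getD z 0) ∧
            (commStep (dTab.getD (pKer.getD b (0, 0)).2 0) b (pKer.getD b (0, 0)).1 = dTab.getD z 0 ∨
              ∃ n < 72, (commStep (dTab.getD (pKer.getD b (0, 0)).2 0) b (pKer.getD b (0, 0)).1).testBit n ≠
                (dTab.getD z 0).testBit n) := by decide +kernel
        rcases (hb2 b hb hq z hzm).2 with e' | ⟨n, hn', hne⟩
        · exact e'
        · exfalso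
          refine hne ?_
          have hj : n / 12 < 6 := by omega
          have := congrFun (congrFun hcode.symm ⟨n % 12 / 2, by omega⟩) ⟨n / 12, hj⟩
          simp only [matF, Matrix.of_apply] at this
          obtain ⟨e1, e2⟩ := fe_inj this
          rcases Nat.mod_two_eq_zero_or_one n with hp2 | hp2
          · rwa [show 12 * (n / 12) + 2 * (n % 12 / 2) = n by omega] at e1
          · rwa [show 12 * (n / 12) + 2 * (n % 12 / 2) + 1 = n by omega] at e2
      have : isZ (commStep (dTab.getD q.2 0) b q.1) = true := by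
        rw [hcodeEq]
        exact List.any_eq_true.2 ⟨z, hzm, Nat.beq_refl _⟩
      rw [hz] at this
      exact Bool.false_ne_true this
  · refine mem_ker_rho.2 fun j => ?_
    have hx' : x.1 ∈ Subgroup.center (SU6 F) := hx
    obtain ⟨hs, -⟩ := center_le_diag hx'
    rw [← Subgroup.mem_center_iff.1 hx', fr_mul_stab _ hs]

theorem card_center : Nat.card (Subgroup.center (SU6 F)) = 3 := by
  rw [H3.card_center_SU hF (by norm_num)]; rfl

theorem card_range_rho (i : Fin 3) : Nat.card (rho (F := F) i).range = 3265920 := by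
  have h := (rho (F := F) i).ker.card_mul_index
  rw [Subgroup.index_ker, card_sub] at h
  have h3 : Nat.card (rho (F := F) i).ker = 3 := by
    rw [ker_rho, Nat.card_congr (Subgroup.subgroupOfEquivOfLe (center_le_sub i)).toEquiv, card_center]
  rw [h3] at h
  omega

end Cfsg.Agent.H8.U62
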