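import Cfsg.Agent.H8.U62.LineCode
import Cfsg.Agent.H3.Count

/-!
# The unitary group in dimension four acting on lines
-/

set_option autoImplicit false
set_option linter.unusedSectionVars false

namespace Cfsg.Agent.H8.U62

open Matrix

/-- A field with nine elements with a chosen square root of minus one. -/
class Setup9 (L : Type) extends Field L where
  /-- The square root. -/
  im : L
  him : im * im = -1
  [fin : Fintype L]
  card : Fintype.card L = 9

namespace Setup9

variable {L : Type} [Setup9 L]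

instance : Fintype L := Setup9.fin

theorem hL : Fintype.card L = 3 ^ 2 := Setup9.card

theorem three : (3 : L) = 0 := by
  have h : ((Fintype.card L : ℕ) : L) = 0 := Nat.cast_card_eq_zero L
  rw [Setup9.card (L := L)] at h
  have h' : (3 : L) * 3 = 0 := by rw [← h]; norm_num
  rcases mul_eq_zero.1 h' with h | h <;> exact h

theorem cast_mod (n : ℕ) : ((n % 3 : ℕ) : L) = (n : L) := by
  conv_rhs => rw [← Nat.mod_add_div n 3]
  push_cast
  rw [three, zero_mul, add_zero]

/-- The element with a given code. -/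
def fe9 (x : ℕ) : L := ((x % 3 : ℕ) : L) + im * ((x / 3 : ℕ) : L)

theorem fe9_mk (r s : ℕ) : fe9 (L := L) (r % 3 + 3 * s) = (r : L) + im * (s : L) := by
  rw [fe9, show (r % 3 + 3 * s) / 3 = s by omega, show (r % 3 + 3 * s) % 3 = r % 3 by omega, cast_mod]

theorem fe9_zero : fe9 (L := L) 0 = 0 := by simp [fe9]

theorem fe9_one : fe9 (L := L) 1 = 1 := by simp [fe9]

theorem fe9_two : fe9 (L := L) 2 = -1 := by
  simp [fe9]
  linear_combination three (L := L)

theorem fe9_add (x y : ℕ) : fe9 (L := L) (add9 x y) = fe9 x + fe9 y := by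
  rw [add9, fe9_mk, cast_mod, fe9, fe9]
  push_cast
  ring

theorem fe9_mul (x y : ℕ) : fe9 (L := L) (mul9 x y) = fe9 x * fe9 y := by
  rw [mul9, fe9_mk, cast_mod, fe9, fe9]
  push_cast
  linear_combination ((x / 3 : ℕ) : L) * ((y / 3 : ℕ) : L) * three (L := L) -
    ((x / 3 : ℕ) : L) * ((y / 3 : ℕ) : L) * him (L := L)

theorem cast_cube (n : ℕ) : (n : L) ^ 3 = (n : L) := by
  induction n with
  | zero => simp
  | succ n ih =>
    push_cast
    linear_combination ih + ((n : L) ^ 2 + (n : L)) * three (L := L)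

theorem fe9_cnj (x : ℕ) : fe9 (L := L) (cnj9 x) = fe9 x ^ 3 := by
  rw [cnj9, fe9_mk, cast_mod, fe9, cast_mod]
  push_cast
  have h1 := cast_cube (L := L) x
  have h2 := cast_cube (L := L) (x / 3)
  have h3 := him (L := L)
  linear_combination (-1 : L) * h1 - im ^ 3 * h2 - im * ((x / 3 : ℕ) : L) * h3 +
    (im * ((x / 3 : ℕ) : L) - (x : L) * im * ((x / 3 : ℕ) : L) * ((x : L) + im * ((x / 3 : ℕ) : L))) *
      three (L := L)

theorem fe9_injective : ∀ x < 9, ∀ y < 9, fe9 (L := L) x = fe9 y → x = y := by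
  have h3 := him (L := L)
  have h0 : (im : L) ≠ 0 := fun h => by rw [h, mul_zero] at h3; exact one_ne_zero (by linear_combination h3)
  have h1 : ∀ n : ℕ, (im : L) ≠ (n : L) := fun n h => by
    rw [h] at h3
    have := cast_cube (L := L) n
    have h4 : (n : L) * 2 = 0 := by linear_combination (n : L) * h3 - this
    have h5 : (n : L) = 0 := by linear_combination -h4 + (n : L) * three (L := L)
    exact h0 (h.trans h5)
  intro x hx y hy h
  simp only [fe9] at h
  by_cases e : x / 3 = y / 3
  · rw [e, add_left_inj] at h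
    have : x % 3 = y % 3 := by
      by_contra hne
      have key : ∀ a b : ℕ, a < b → b < 3 → (a : L) ≠ (b : L) := by
        intro a b hab hb e
        interval_cases b <;> interval_cases a <;> simp at e
        · exact one_ne_zero (by linear_combination three (L := L) + e : (1 : L) = 0)
        · exact one_ne_zero (by linear_combination -e : (1 : L) = 0)
      rcases Nat.lt_or_gt_of_ne hne with hh | hh
      · exact key _ _ hh (Nat.mod_lt _ (by norm_num)) h
      · exact key _ _ hh (Nat.mod_lt _ (by norm_num)) h.symm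
    omega
  · exfalso
    have hd : (im : L) * (((x / 3 : ℕ) : L) - ((y / 3 : ℕ) : L)) = ((y % 3 : ℕ) : L) - ((x % 3 : ℕ) : L) := by
      linear_combination h
    have hu : ((x / 3 : ℕ) : L) - ((y / 3 : ℕ) : L) = 1 ∨ ((x / 3 : ℕ) : L) - ((y / 3 : ℕ) : L) = -1 := by
      have hx3 : x / 3 < 3 := by omega
      have hy3 : y / 3 < 3 := by omega
      generalize x / 3 = a at hx3 e
      generalize y / 3 = b at hy3 e
      interval_cases a <;> interval_cases b <;>
        first
          | exact absurd rfl e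
          | exact Or.inl (by push_cast; linear_combination (0 : L))
          | exact Or.inl (by push_cast; linear_combination three (L := L))
          | exact Or.inl (by push_cast; linear_combination -three (L := L))
          | exact Or.inr (by push_cast; linear_combination (0 : L))
          | exact Or.inr (by push_cast; linear_combination three (L := L))
          | exact Or.inr (by push_cast; linear_combination -three (L := L))
    rcases hu with hu | hu <;> rw [hu] at hd
    · exact h1 ((y % 3) + 2 * (x % 3)) (by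
        push_cast; linear_combination hd - ((x % 3 : ℕ) : L) * three (L := L))
    · exact h1 ((x % 3) + 2 * (y % 3)) (by
        push_cast; linear_combination -hd - ((y % 3 : ℕ) : L) * three (L := L))

/-- The vector with a given code. -/
def vec9 (v : ℕ) : Fin 4 → L := fun i => fe9 (dig9 v i.1)

theorem dig9_lt (v i : ℕ) : dig9 v i < 9 := Nat.mod_lt _ (by norm_num)

theorem add9_lt (x y : ℕ) : add9 x y < 9 := by unfold add9; omega

theorem vec9_comb (c d u v : ℕ) :
    vec9 (L := L) (comb9 c d u v) = fe9 (L := L) c • vec9 u + fe9 (L := L) d • vec9 v := by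
  funext i
  have h := fun j => add9_lt (mul9 c (dig9 u j)) (mul9 d (dig9 v j))
  have h0 := h 0
  have h1 := h 1
  have h2 := h 2
  have h3 := h 3
  have key : ∀ a0 a1 a2 a3 : ℕ, a0 < 9 → a1 < 9 → a2 < 9 → a3 < 9 →
      dig9 (a0 + 9 * a1 + 81 * a2 + 729 * a3) 0 = a0 ∧ dig9 (a0 + 9 * a1 + 81 * a2 + 729 * a3) 1 = a1 ∧
      dig9 (a0 + 9 * a1 + 81 * a2 + 729 * a3) 2 = a2 ∧ dig9 (a0 + 9 * a1 + 81 * a2 + 729 * a3) 3 = a3 := by
    intro a0 a1 a2 a3 k0 k1 k2 k3
    simp only [dig9]
    norm_num
    omega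
  obtain ⟨g0, g1, g2, g3⟩ := key _ _ _ _ h0 h1 h2 h3
  have key' : dig9 (comb9 c d u v) i.1 = add9 (mul9 c (dig9 u i.1)) (mul9 d (dig9 v i.1)) := by
    match i with
    | ⟨0, _⟩ => exact g0
    | ⟨1, _⟩ => exact g1
    | ⟨2, _⟩ => exact g2
    | ⟨3, _⟩ => exact g3
  simp only [vec9, key', fe9_add, fe9_mul, Pi.add_apply, Pi.smul_apply, smul_eq_mul]

theorem comb9_lt (c d u v : ℕ) : comb9 c d u v < 6561 := by
  have h := fun j => add9_lt (mul9 c (dig9 u j)) (mul9 d (dig9 v j))
  have h0 := h 0
  have h1 := h 1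
  have h2 := h 2
  have h3 := h 3
  unfold comb9
  omega

theorem vec9_injective {u v : ℕ} (hu : u < 6561) (hv : v < 6561) (h : vec9 (L := L) u = vec9 v) : u = v := by
  have e := fun j : Fin 4 => fe9_injective (L := L) _ (dig9_lt u j.1) _ (dig9_lt v j.1) (congrFun h j)
  have e0 := e 0
  have e1 := e 1
  have e2 := e 2
  have e3 := e 3
  simp [dig9] at e0 e1 e2 e3
  omega

/-- The matrix with given columns. -/
def mat9 (M : List ℕ) : Matrix (Fin 4) (Fin 4) L := Matrix.of fun i j => fe9 (ent9 M i.1 j.1)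

theorem vec9_mv (M : List ℕ) (v : ℕ) : vec9 (L := L) (mv9 M v) = mat9 M *ᵥ vec9 v := by
  rw [mv9, vec9_comb, vec9_comb, vec9_comb, fe9_one, one_smul, one_smul]
  funext i
  simp only [mat9, ent9, vec9, Matrix.mulVec, dotProduct, Matrix.of_apply, Fin.sum_univ_four, Pi.add_apply,
    Pi.smul_apply, smul_eq_mul]
  simp
  ring

theorem det_mat9 (M : List ℕ) : (mat9 (L := L) M).det = fe9 (det4 M) := by
  rw [Matrix.det_succ_row_zero, Fin.sum_univ_four]
  simp only [Matrix.det_fin_three, det4, min9, det3, skip9, fe9_add, fe9_mul, fe9_two, mat9, Matrix.of_apply,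
    Matrix.submatrix_apply]
  simp [Fin.succAbove, Fin.reduceFinMk, Fin.lt_def]
  ring

theorem herm_vec9 (u v : ℕ) : hermForm 4 L 3 (vec9 u) (vec9 v) = fe9 (herm9 u v) := by
  simp only [herm9, fe9_add, fe9_mul, fe9_cnj, hermForm, Fin.sum_univ_four, vec9]
  simp
  ring

/-- The unitary element of a checked matrix. -/
theorem exists_su4 {M : List ℕ} (h : su4OK M = true) : ∃ g : SU 4 L 3, g.1.1 = mat9 (L := L) M := by
  simp only [su4OK, Bool.and_eq_true, List.all_eq_true, List.mem_range] at h
  have hdet : (mat9 (L := L) M).det = 1 := by rw [det_mat9, Nat.eq_of_beq_eq_true h.2, fe9_one]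
  refine ⟨⟨⟨mat9 M, hdet⟩, H3.mem_SU_iff.2 fun x y => ?_⟩, rfl⟩
  have hcol : ∀ i j : Fin 4, ∑ k : Fin 4, mat9 (L := L) M k i * mat9 M k j ^ 3 = if i = j then 1 else 0 := by
    intro i j
    have e : ∑ k : Fin 4, mat9 (L := L) M k i * mat9 M k j ^ 3 =
        hermForm 4 L 3 (vec9 (M.getD i.1 0)) (vec9 (M.getD j.1 0)) := rfl
    rw [e, herm_vec9, Nat.eq_of_beq_eq_true (h.1 i.1 i.2 j.1 j.2)]
    by_cases hij : i = j
    · subst hij; simp [fe9]
    · have : Nat.beq i.1 j.1 = false := Bool.eq_false_iff.2 fun e => hij (Fin.ext (Nat.eq_of_beq_eq_true e))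
      rw [this, if_neg hij]; exact fe9_zero
  have hfrob : ∀ a b : L, (a + b) ^ 3 = a ^ 3 + b ^ 3 := fun a b => by
    linear_combination (a ^ 2 * b + a * b ^ 2) * three (L := L)
  simp only [hermForm, Matrix.mulVec, dotProduct, Fin.sum_univ_four, hfrob, mul_pow]
  have c00 := hcol 0 0
  have c01 := hcol 0 1
  have c02 := hcol 0 2
  have c03 := hcol 0 3
  have c10 := hcol 1 0
  have c11 := hcol 1 1
  have c12 := hcol 1 2
  have c13 := hcol 1 3
  have c20 := hcol 2 0
  have c21 := hcol 2 1
  have c22 := hcol 2 2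
  have c23 := hcol 2 3
  have c30 := hcol 3 0
  have c31 := hcol 3 1
  have c32 := hcol 3 2
  have c33 := hcol 3 3
  simp only [Fin.sum_univ_four, Fin.reduceEq, if_true, if_false] at c00 c01 c02 c03 c10 c11 c12 c13 c20 c21 c22 c23 c30 c31 c32 c33
  linear_combination (x 0 * y 0 ^ 3) * c00 + (x 0 * y 1 ^ 3) * c01 + (x 0 * y 2 ^ 3) * c02 + (x 0 * y 3 ^ 3) * c03 +
    (x 1 * y 0 ^ 3) * c10 + (x 1 * y 1 ^ 3) * c11 + (x 1 * y 2 ^ 3) * c12 + (x 1 * y 3 ^ 3) * c13 +
    (x 2 * y 0 ^ 3) * c20 + (x 2 * y 1 ^ 3) * c21 + (x 2 * y 2 ^ 3) * c22 + (x 2 * y 3 ^ 3) * c23 +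
    (x 3 * y 0 ^ 3) * c30 + (x 3 * y 1 ^ 3) * c31 + (x 3 * y 2 ^ 3) * c32 + (x 3 * y 3 ^ 3) * c33

theorem spanMask_sound (u v : ℕ) : ∀ (l : List ℕ) (m : ℕ), (spanMask u v l m).2 = true →
    (l.map fun c => comb9 (c % 9) (c / 9) u v).Nodup ∧
    (∀ c ∈ l, m.testBit (comb9 (c % 9) (c / 9) u v) = false) ∧
    ∀ n, (spanMask u v l m).1.testBit n =
      (m.testBit n || l.any fun c => decide (comb9 (c % 9) (c / 9) u v = n))
  | [], m, _ => by simp [spanMask]
  | c :: l, m, h => by
    generalize hk : comb9 (c % 9) (c / 9) u v = k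
    have e : spanMask u v (c :: l) m =
        (bif m.testBit k then (m, false) else spanMask u v l (Nat.lor m (1 <<< k))) := by
      rw [spanMask, hk]
      cases k <;> rfl
    rw [e] at h ⊢
    cases hb : m.testBit k
    · simp only [hb, cond_false] at h ⊢
      obtain ⟨h1, h2, h3⟩ := spanMask_sound u v l _ h
      have hlor : ∀ n, (Nat.lor m (1 <<< k)).testBit n = (m.testBit n || decide (k = n)) := fun n => by
        rw [show ∀ a b, Nat.lor a b = a ||| b from fun _ _ => rfl, Nat.testBit_or, Nat.one_shiftLeft,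
          Nat.testBit_two_pow]
      refine ⟨?_, ?_, fun n => ?_⟩
      · rw [List.map_cons, List.nodup_cons, List.mem_map, hk]
        refine ⟨?_, h1⟩
        rintro ⟨d, hd, hde⟩
        have := h2 d hd
        rw [hlor, hde] at this
        simp at this
      · intro d hd
        rcases List.mem_cons.1 hd with rfl | hd
        · rw [hk]; exact hb
        · have := h2 d hd
          rw [hlor, Bool.or_eq_false_iff] at this
          exact this.1
      · rw [h3, hlor, List.any_cons, hk, Bool.or_assoc]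
    · simp only [hb, cond_true] at h
      exact absurd h (by simp)

end Setup9

end Cfsg.Agent.H8.U62
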