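import Cfsg.Agent.H8.U62.SubAct
import Cfsg.Agent.H8.U62.Lines

/-!
# The three subgroups modulo scalars are `PSU 4`
-/

set_option autoImplicit false
set_option linter.unusedSectionVars false
set_option maxRecDepth 20000
set_option maxHeartbeats 1000000

namespace Cfsg.Agent.H8.U62

open Matrix

variable {F : Type} [Setup F] {L : Type} [Setup9 L]

theorem lines_ok (i : Fin 3) : linesOK i.1 = true := by
  match i with
  | ⟨0, _⟩ => exact lines_ok0
  | ⟨1, _⟩ => exact lines_ok1
  | ⟨2, _⟩ => exact lines_ok2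

/-- The basis codes of a line. -/
def lineU (i : Fin 3) (j : Fin 112) : ℕ × ℕ := (lineB.getD i.1 []).getD j.1 (0, 0)

open Setup9 in
/-- A line. -/
def lineS (i : Fin 3) (j : Fin 112) : Set (Fin 4 → L) :=
  Set.range fun c : L × L => c.1 • vec9 (lineU i j).1 + c.2 • vec9 (lineU i j).2

open Setup9 in
theorem fe9_surjective (x : L) : ∃ c < 9, fe9 c = x := by
  classical
  have h : Function.Bijective fun c : Fin 9 => (fe9 c.1 : L) :=
    (Fintype.bijective_iff_injective_and_card _).2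
      ⟨fun a b e => Fin.ext (fe9_injective _ a.2 _ b.2 e), by simp [Setup9.card (L := L)]⟩
  obtain ⟨c, hc⟩ := h.2 x
  exact ⟨c.1, c.2, hc⟩

theorem line_facts (i : Fin 3) (k : Fin 112) :
    ∃ m : ℕ, ((List.range 81).map fun c => comb9 (c % 9) (c / 9) (lineU i k).1 (lineU i k).2).Nodup ∧
      (∀ n, m.testBit n = (List.range 81).any fun c =>
        decide (comb9 (c % 9) (c / 9) (lineU i k).1 (lineU i k).2 = n)) ∧
      (∀ j : Fin 112, j ≠ k → ¬ (m.testBit (lineU i j).1 = true ∧ m.testBit (lineU i j).2 = true)) ∧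
      ∀ (g : Fin 4) (j : Fin 112), subPermFun i g j = k.1 →
        m.testBit (mv9 ((uMat.getD i.1 []).getD g.1 []) (lineU i j).1) = true ∧
        m.testBit (mv9 ((uMat.getD i.1 []).getD g.1 []) (lineU i j).2) = true := by
  have h := lines_ok i
  simp only [linesOK, Bool.and_eq_true, List.all_eq_true, List.mem_range] at h
  have hk := h.2 k.1 k.2
  obtain ⟨⟨hb, hne⟩, hg⟩ := hk
  obtain ⟨h1, -, h3⟩ := Setup9.spanMask_sound _ _ (List.range 81) 0 hb
  refine ⟨_, h1, fun n => by rw [h3, Nat.zero_testBit, Bool.false_or]; rfl, fun j hj hh => ?_, fun g j hp => ?_⟩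
  · have h' := hne j.1 j.2
    simp only [Bool.or_eq_true, Bool.not_eq_true', Bool.and_eq_false_iff] at h'
    rcases h' with e | e | e
    · exact hj (Fin.ext (Nat.eq_of_beq_eq_true e))
    · exact Bool.false_ne_true (e.symm.trans hh.1)
    · exact Bool.false_ne_true (e.symm.trans hh.2)
  · have h' := hg g.1 g.2 j.1 j.2
    rw [show ((subPerm.getD i.1 []).getD g.1 []).getD j.1 112 = k.1 from hp, Nat.beq_refl] at h'
    simp only [Bool.not_true, Bool.false_or, Bool.and_eq_true] at h'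
    exact h'

theorem lineU_lt : ∀ (i : Fin 3) (j : Fin 112), (lineU i j).1 < 6561 ∧ (lineU i j).2 < 6561 := by
  decide +kernel

theorem mem_lineS_iff (i : Fin 3) (k : Fin 112) (x : Fin 4 → L) :
    x ∈ lineS i k ↔ ∃ c < 81, x = Setup9.vec9 (comb9 (c % 9) (c / 9) (lineU i k).1 (lineU i k).2) := by
  constructor
  · rintro ⟨⟨a, b⟩, rfl⟩
    obtain ⟨a', ha, rfl⟩ := fe9_surjective a
    obtain ⟨b', hb, rfl⟩ := fe9_surjective b
    refine ⟨a' + 9 * b', by omega, ?_⟩
    rw [show (a' + 9 * b') % 9 = a' by omega, show (a' + 9 * b') / 9 = b' by omega, Setup9.vec9_comb]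
  · rintro ⟨c, -, rfl⟩
    exact ⟨(Setup9.fe9 (c % 9), Setup9.fe9 (c / 9)), (Setup9.vec9_comb _ _ _ _).symm⟩

theorem ncard_lineS (i : Fin 3) (k : Fin 112) : (lineS i k : Set (Fin 4 → L)).ncard = 81 := by
  classical
  obtain ⟨m, h1, -⟩ := line_facts i k
  have e : (lineS i k : Set (Fin 4 → L)) = Set.range fun c : Fin 81 =>
      Setup9.vec9 (comb9 (c.1 % 9) (c.1 / 9) (lineU i k).1 (lineU i k).2) := by
    ext x
    rw [mem_lineS_iff]
    exact ⟨fun ⟨c, hc, e⟩ => ⟨⟨c, hc⟩, e.symm⟩, fun ⟨c, e⟩ => ⟨c.1, c.2, e.symm⟩⟩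
  rw [e, Set.ncard_range_of_injective, Nat.card_fin]
  intro a b hab
  have hab' := Setup9.vec9_injective (Setup9.comb9_lt _ _ _ _) (Setup9.comb9_lt _ _ _ _) hab
  refine Fin.ext ((h1.getElem_inj_iff (hi := ?_) (hj := ?_)).1 ?_)
  · simp
  · simp
  · simpa using hab'

theorem testBit_of_mem {i : Fin 3} {k : Fin 112} {m : ℕ} {n : ℕ} (hn : n < 6561)
    (hm : ∀ n, m.testBit n = (List.range 81).any fun c =>
      decide (comb9 (c % 9) (c / 9) (lineU i k).1 (lineU i k).2 = n)) :
    m.testBit n = true ↔ (Setup9.vec9 n : Fin 4 → L) ∈ lineS i k := by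
  rw [hm, List.any_eq_true, mem_lineS_iff]
  simp only [List.mem_range, decide_eq_true_eq]
  exact ⟨fun ⟨c, hc, e⟩ => ⟨c, hc, by rw [e]⟩,
    fun ⟨c, hc, e⟩ => ⟨c, hc, (Setup9.vec9_injective hn (Setup9.comb9_lt _ _ _ _) e).symm⟩⟩

theorem lineS_injective (i : Fin 3) : Function.Injective (lineS (L := L) i) := by
  intro j k e
  by_contra hne
  obtain ⟨m, -, hm, hd, -⟩ := line_facts i k
  refine hd j hne ⟨(testBit_of_mem (L := L) (lineU_lt i j).1 hm).2 ?_,
    (testBit_of_mem (L := L) (lineU_lt i j).2 hm).2 ?_⟩ <;> rw [← e]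
  · exact ⟨(1, 0), by simp⟩
  · exact ⟨(0, 1), by simp⟩

theorem image_lineS {i : Fin 3} {j k : Fin 112} (M : Matrix (Fin 4) (Fin 4) L) (hM : Function.Injective M.mulVec)
    (h1 : M *ᵥ Setup9.vec9 (lineU i j).1 ∈ lineS i k) (h2 : M *ᵥ Setup9.vec9 (lineU i j).2 ∈ lineS i k) :
    M.mulVec '' lineS i j = lineS i k := by
  refine Set.eq_of_subset_of_ncard_le ?_ ?_ (Set.toFinite _)
  · rintro _ ⟨_, ⟨⟨a, b⟩, rfl⟩, rfl⟩
    obtain ⟨⟨p, q⟩, e1⟩ := h1
    obtain ⟨⟨r, s⟩, e2⟩ := h2
    refine ⟨(a * p + b * r, a * q + b * s), ?_⟩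
    simp only at e1 e2 ⊢
    rw [Matrix.mulVec_add, Matrix.mulVec_smul, Matrix.mulVec_smul, ← e1, ← e2]
    simp only [smul_add, smul_smul, add_smul]
    abel
  · rw [Set.ncard_image_of_injective _ hM, ncard_lineS, ncard_lineS]

theorem mulVec_injective (h : SU 4 L 3) : Function.Injective (h.1.1 : Matrix (Fin 4) (Fin 4) L).mulVec := by
  intro x y e
  have := congrArg ((h⁻¹).1.1 *ᵥ ·) e
  simp only [Matrix.mulVec_mulVec] at this
  have hh : ((h⁻¹).1.1 : Matrix (Fin 4) (Fin 4) L) * h.1.1 = 1 :=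
    congrArg (fun g : SU 4 L 3 => (g.1.1 : Matrix (Fin 4) (Fin 4) L)) (inv_mul_cancel h)
  rwa [hh, Matrix.one_mulVec, Matrix.one_mulVec] at this

/-- The elements permuting the lines with number `i`. -/
noncomputable def lineStab (i : Fin 3) : Subgroup (SU 4 L 3) :=
  let S : Submonoid (SU 4 L 3) :=
    { carrier := {h | ∀ j, ∃ k, h.1.1.mulVec '' lineS i j = lineS i k}
      one_mem' := fun j => ⟨j, by
        rw [show ((1 : SU 4 L 3).1.1 : Matrix (Fin 4) (Fin 4) L) = 1 from rfl]
        simp⟩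
      mul_mem' := fun {a b} ha hb j => by
        obtain ⟨k, hk⟩ := hb j
        obtain ⟨l, hl⟩ := ha k
        refine ⟨l, ?_⟩
        rw [← hl, ← hk, Set.image_image]
        refine Set.image_congr fun x _ => ?_
        rw [Matrix.mulVec_mulVec]
        rfl }
  { S with
    inv_mem' := fun {a} ha => by
      have ho : 0 < orderOf a := orderOf_pos a
      have e : a⁻¹ = a ^ (orderOf a - 1) := inv_eq_of_mul_eq_one_right (by
        rw [← pow_succ', Nat.sub_add_cancel ho, pow_orderOf_eq_one])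
      show a⁻¹ ∈ S
      rw [e]
      exact pow_mem (show a ∈ S from ha) _ }

theorem mem_lineStab {i : Fin 3} {h : SU 4 L 3} :
    h ∈ lineStab i ↔ ∀ j, ∃ k, h.1.1.mulVec '' lineS i j = lineS i k := Iff.rfl

/-- The image of a line. -/
noncomputable def lineIdx (i : Fin 3) (h : lineStab (L := L) i) (j : Fin 112) : Fin 112 :=
  (mem_lineStab.1 h.2 j).choose

theorem lineIdx_spec (i : Fin 3) (h : lineStab (L := L) i) (j : Fin 112) :
    h.1.1.1.mulVec '' lineS i j = lineS i (lineIdx i h j) := (mem_lineStab.1 h.2 j).choose_spec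

theorem lineIdx_mul (i : Fin 3) (a b : lineStab (L := L) i) (j : Fin 112) :
    lineIdx i (a * b) j = lineIdx i a (lineIdx i b j) := by
  refine lineS_injective (L := L) i ?_
  rw [← lineIdx_spec, ← lineIdx_spec, ← lineIdx_spec, Set.image_image]
  refine Set.image_congr fun x _ => ?_
  rw [Matrix.mulVec_mulVec]
  rfl

theorem lineIdx_one (i : Fin 3) (j : Fin 112) : lineIdx i (1 : lineStab (L := L) i) j = j := by
  refine lineS_injective (L := L) i ?_
  rw [← lineIdx_spec, show ((1 : lineStab (L := L) i).1.1.1 : Matrix (Fin 4) (Fin 4) L) = 1 from rfl]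
  simp

/-- The permutation representation on lines. -/
noncomputable def rhoL (i : Fin 3) : lineStab (L := L) i →* Equiv.Perm (Fin 112) where
  toFun x :=
    { toFun := lineIdx i x
      invFun := lineIdx i x⁻¹
      left_inv := fun j => by rw [← lineIdx_mul, inv_mul_cancel, lineIdx_one]
      right_inv := fun j => by rw [← lineIdx_mul, mul_inv_cancel, lineIdx_one] }
  map_one' := Equiv.ext (lineIdx_one i)
  map_mul' x y := Equiv.ext (lineIdx_mul i x y)

theorem exists_line_gen (i : Fin 3) (g : Fin 4) :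
    ∃ h : lineStab (L := L) i, ∀ j, (rhoL i h j).1 = subPermFun i g j := by
  have hl := lines_ok i
  simp only [linesOK, Bool.and_eq_true, List.all_eq_true, List.mem_range] at hl
  obtain ⟨h, hh⟩ := Setup9.exists_su4 (L := L) (hl.1.1 g.1 g.2)
  have hp : ∀ j : Fin 112, subPermFun i g j < 112 := fun j => by
    obtain ⟨q, hq, -, e⟩ := (sub_facts i).2.1 g.1 g.2 j.1 j.2
    show ((subPerm.getD i.1 []).getD g.1 []).getD j.1 112 < 112
    rw [e]; exact hq
  have key : ∀ j : Fin 112, h.1.1.mulVec '' lineS i j = lineS i ⟨subPermFun i g j, hp j⟩ := by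
    intro j
    obtain ⟨m, -, hm, -, hg⟩ := line_facts i ⟨subPermFun i g j, hp j⟩
    obtain ⟨t1, t2⟩ := hg g j rfl
    refine image_lineS _ (mulVec_injective h) ?_ ?_ <;> rw [hh, ← Setup9.vec9_mv]
    · exact (testBit_of_mem (by unfold mv9; exact Setup9.comb9_lt _ _ _ _) hm).1 t1
    · exact (testBit_of_mem (by unfold mv9; exact Setup9.comb9_lt _ _ _ _) hm).1 t2
  refine ⟨⟨h, mem_lineStab.2 fun j => ⟨_, key j⟩⟩, fun j => ?_⟩
  have := lineS_injective (L := L) i ((lineIdx_spec i ⟨h, mem_lineStab.2 fun j => ⟨_, key j⟩⟩ j).symm.trans (key j))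
  exact congrArg Fin.val this

theorem range_rho_le (i : Fin 3) : (rho (F := F) i).range ≤ (rhoL (L := L) i).range := by
  rintro _ ⟨x, rfl⟩
  have key : ∀ y : SU6 F, y ∈ sub i → ∀ hy : y ∈ sub i, rho i ⟨y, hy⟩ ∈ (rhoL (L := L) i).range := by
    intro y hy
    induction hy using Subgroup.closure_induction with
    | mem y hy =>
      intro hy'
      obtain ⟨g, rfl⟩ := hy
      obtain ⟨h, hh⟩ := exists_line_gen (L := L) i g
      exact ⟨h, Equiv.ext fun j => Fin.ext (by rw [hh, rho_gen])⟩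
    | one =>
      intro hy'
      exact ⟨1, by rw [map_one]; exact (map_one (rho i)).symm⟩
    | mul a b ha hb iha ihb =>
      intro hy'
      have := mul_mem (iha ha) (ihb hb)
      rwa [← map_mul] at this
    | inv a ha iha =>
      intro hy'
      have := inv_mem (iha ha)
      rwa [← map_inv] at this
  exact key x.1 x.2 x.2

theorem card_SU4 : Nat.card (SU 4 L 3) = 13063680 := by
  have h := H3.card_SU (Setup9.hL (L := L)) (n := 4) (by norm_num)
  rw [H3.card_GU (Setup9.hL (L := L))] at h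
  simp [Finset.prod_range_succ, Nat.even_iff] at h
  omega

theorem center_le_ker (i : Fin 3) :
    ∀ h : SU 4 L 3, h ∈ Subgroup.center (SU 4 L 3) → ∃ hm : h ∈ lineStab i, rhoL i ⟨h, hm⟩ = 1 := by
  intro h hc
  obtain ⟨l, hl⟩ := (H3.mem_center_SU_iff (Setup9.hL (L := L)) (by norm_num) h).1 hc
  have key : ∀ j, h.1.1.mulVec '' lineS i j = lineS i j := fun j => by
    refine image_lineS _ (mulVec_injective h) ?_ ?_ <;> rw [hl]
    · exact ⟨(l, 0), by simp⟩
    · exact ⟨(0, l), by simp⟩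
  refine ⟨mem_lineStab.2 fun j => ⟨j, key j⟩, Equiv.ext fun j => lineS_injective (L := L) i ?_⟩
  show lineS i (lineIdx i _ j) = lineS i j
  rw [← lineIdx_spec]
  exact key j

/-- The three subgroups modulo scalars are isomorphic to the projective unitary group. -/
theorem sub_mod_center_iso (i : Fin 3) :
    Nonempty (sub (F := F) i ⧸ (Subgroup.center (SU6 F)).subgroupOf (sub i) ≃* PSU 4 L 3) := by
  have hle := range_rho_le (F := F) (L := L) i
  have h1 : 3265920 ≤ Nat.card (rhoL (L := L) i).range := by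
    rw [← card_range_rho (F := F) i]; exact Nat.card_le_card_of_injective _ (Subgroup.inclusion_injective hle)
  have hZ : Nat.card (Subgroup.center (SU 4 L 3)) = 4 := by
    rw [H3.card_center_SU (Setup9.hL (L := L)) (by norm_num)]; rfl
  let ι : Subgroup.center (SU 4 L 3) → (rhoL (L := L) i).ker := fun z =>
    ⟨⟨z.1, (center_le_ker i z.1 z.2).1⟩, MonoidHom.mem_ker.2 (center_le_ker i z.1 z.2).2⟩
  have hι : Function.Injective ι := fun a b e =>
    Subtype.ext (congrArg (fun x : (rhoL (L := L) i).ker => x.1.1) e)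
  have h2 := Nat.card_le_card_of_injective ι hι
  rw [hZ] at h2
  have h3 := (rhoL (L := L) i).ker.card_mul_index
  rw [Subgroup.index_ker] at h3
  have h4 := Subgroup.card_le_card_group (lineStab (L := L) i)
  rw [card_SU4, ← h3] at h4
  have h5 : Nat.card (rhoL (L := L) i).ker * Nat.card (rhoL (L := L) i).range ≥ 4 * 3265920 := Nat.mul_le_mul h2 h1
  have h6 : Nat.card (rhoL (L := L) i).range = 3265920 := by
    have : 4 * Nat.card (rhoL (L := L) i).range ≤ 13063680 := le_trans (Nat.mul_le_mul_right _ h2) h4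
    omega
  have h7 : Nat.card (rhoL (L := L) i).ker = 4 := by
    rw [h6] at h4
    omega
  have htop : lineStab (L := L) i = ⊤ := Subgroup.eq_top_of_card_eq _ (by rw [card_SU4, ← h3, h6, h7])
  have heq : (rho (F := F) i).range = (rhoL (L := L) i).range :=
    Subgroup.eq_of_le_of_card_ge hle (by rw [h6, card_range_rho])
  let e0 : SU 4 L 3 →* lineStab (L := L) i :=
    { toFun := fun h => ⟨h, by rw [htop]; exact Subgroup.mem_top h⟩
      map_one' := rfl
      map_mul' := fun _ _ => rfl }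
  let φ : SU 4 L 3 →* Equiv.Perm (Fin 112) := (rhoL (L := L) i).comp e0
  have hr : φ.range = (rhoL (L := L) i).range := by
    refine le_antisymm ?_ ?_
    · rintro _ ⟨h, rfl⟩; exact ⟨e0 h, rfl⟩
    · rintro _ ⟨h, rfl⟩; exact ⟨h.1, rfl⟩
  have hk : Subgroup.center (SU 4 L 3) = φ.ker := by
    refine Subgroup.eq_of_le_of_card_ge (fun z hz => MonoidHom.mem_ker.2 (center_le_ker i z hz).2) ?_
    have h8 := φ.ker.card_mul_index
    rw [Subgroup.index_ker, hr, h6, card_SU4] at h8
    rw [hZ]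
    omega
  exact ⟨((((QuotientGroup.quotientMulEquivOfEq (ker_rho i).symm).trans
    (QuotientGroup.quotientKerEquivRange (rho (F := F) i))).trans (MulEquiv.subgroupCongr (heq.trans hr.symm))).trans
    (QuotientGroup.quotientKerEquivRange φ).symm).trans (QuotientGroup.quotientMulEquivOfEq hk.symm)⟩

end Cfsg.Agent.H8.U62
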