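import Cfsg.Agent.H8.U62.Check

/-!
# Checks on frames
-/

set_option autoImplicit false

namespace Cfsg.Agent.H8.U62

theorem pt_move_ok : ptMoveOK = true := by decide +kernel

theorem reps_ok : repsOK = true := by decide +kernel

theorem frame_ok0 : frameOK 0 clq0 = true := by decide +kernel

theorem frame_ok1 : frameOK 1 clq1 = true := by decide +kernel

theorem frame_ok2 : frameOK 2 clq2 = true := by decide +kernel

end Cfsg.Agent.H8.U62
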