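import Cfsg.Agent.H8.U62.Check

/-!
# Checks on the three subgroups
-/

set_option autoImplicit false

namespace Cfsg.Agent.H8.U62

theorem sub_ok0 : subOK 0 = true := by decide +kernel

theorem sub_ok1 : subOK 1 = true := by decide +kernel

theorem sub_ok2 : subOK 2 = true := by decide +kernel

theorem big_ok : bigOK = true := by decide +kernel

theorem ext_ok : extOK = true := by decide +kernel

theorem conj_ok : conjOK = true := by decide +kernel

end Cfsg.Agent.H8.U62
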