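import Cfsg.Agent.H3.Isotropic

/-!
# Packed vectors and matrices over a field with four elements

A vector of length six is a number below `2 ^ 12`, a matrix is a number below `2 ^ 72` holding
its columns. The scalar `a + b * om` is the pair of bits `(a, b)`.
-/

set_option autoImplicit false
set_option linter.unusedSectionVars false

namespace Cfsg.Agent.H8.U62

open Matrix

/-- Strict evaluation of a number. -/
def force {α : Type} (n : ℕ) (f : ℕ → α) : α :=
  match n with
  | 0 => f 0
  | k + 1 => f (k + 1)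

theorem force_eq {α : Type} (n : ℕ) (f : ℕ → α) : force n f = f n := by
  cases n <;> rfl

/-- Even bit positions. -/
def evM : ℕ := 1365

/-- Scaling a vector by the generator of the unit group. -/
def sW (v : ℕ) : ℕ :=
  Nat.lor (Nat.land (v >>> 1) evM) ((Nat.land (Nat.xor v (v >>> 1)) evM) <<< 1)

/-- The first column of a matrix code. -/
def colC (A : ℕ) (j : ℕ) : ℕ := Nat.land (A >>> (12 * j)) 4095

/-- One summand of a product. -/
def selC (lo hi : Bool) (c : ℕ) : ℕ := Nat.xor (bif lo then c else 0) (bif hi then sW c else 0)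

/-- Product of a matrix with a vector, over the listed columns. -/
def mvN : ℕ → ℕ → ℕ → ℕ
  | 0, _, _ => 0
  | k + 1, A, v => Nat.xor (selC (v.testBit 0) (v.testBit 1) (Nat.land A 4095)) (mvN k (A >>> 12) (v >>> 2))

/-- Product of a matrix with a vector. -/
def mvC (A v : ℕ) : ℕ := mvN 6 A v

/-- Product of two matrices, over the listed columns. -/
def mmN (A : ℕ) : ℕ → ℕ → ℕ
  | 0, _ => 0
  | k + 1, B => force (mvC A (Nat.land B 4095)) fun c => Nat.lor c ((mmN A k (B >>> 12)) <<< 12)

/-- Product of two matrices. -/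
def mmC (A B : ℕ) : ℕ := mmN A 6 B

/-- The identity. -/
def oneC : ℕ :=
  (1 <<< 0) + (4 <<< 12) + (16 <<< 24) + (64 <<< 36) + (256 <<< 48) + (1024 <<< 60)

/-- The two bit planes of the products of the coordinates of one vector with the conjugates of the other. -/
def hLo (u v : ℕ) : ℕ :=
  Nat.land (Nat.xor (Nat.land u (Nat.xor v (v >>> 1))) (Nat.land (u >>> 1) (v >>> 1))) evM

/-- The second plane. -/
def hHi (u v : ℕ) : ℕ :=
  Nat.land (Nat.xor (Nat.land u (v >>> 1)) (Nat.land (u >>> 1) v)) evM

/-- Parity of six even bits. -/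
def par (x : ℕ) : Bool :=
  (Nat.xor (Nat.xor (Nat.xor x (x >>> 2)) (Nat.xor (x >>> 4) (x >>> 6))) (Nat.xor (x >>> 8) (x >>> 10))).testBit 0

/-- Orthogonality of two vector codes. -/
def orthC (u v : ℕ) : Bool := !(par (hLo u v)) && !(par (hHi u v))

/-- Norm one of a vector code. -/
def unitC (v : ℕ) : Bool := par (hLo v v) && !(par (hHi v v))

/-- The matrix of a transvection with centre `v`, over the listed columns. -/
def transN (v : ℕ) : ℕ → ℕ
  | 0 => 0
  | k + 1 =>
    Nat.lor (transN v k)
      ((Nat.xor (1 <<< (2 * k))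
        (selC (Bool.xor (v.testBit (2 * k)) (v.testBit (2 * k + 1))) (v.testBit (2 * k + 1))
          (Nat.land v 4095))) <<< (12 * k))

/-- The matrix of an atom: a transvection, or the identity if the centre is not isotropic. -/
def atomC (v : ℕ) : ℕ := bif orthC v v then transN v 6 else oneC

/-- The matrix of a word in atoms. -/
def wordC : List ℕ → ℕ
  | [] => oneC
  | v :: l => force (wordC l) fun B => mmC (atomC v) B

section Sem

variable {F : Type} [Field F] (om : F)

/-- A bit as a scalar. -/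
def bF (b : Bool) : F := bif b then 1 else 0

/-- Two bits as a scalar. -/
def fe (a b : Bool) : F := bF a + om * bF b

/-- The vector of a code. -/
def vecF (v : ℕ) : Fin 6 → F :=
  fun i => fe om (v.testBit (2 * i.1)) (v.testBit (2 * i.1 + 1))

/-- The matrix of a code. -/
def matF (A : ℕ) : Matrix (Fin 6) (Fin 6) F :=
  Matrix.of fun i j => fe om (A.testBit (12 * j.1 + 2 * i.1)) (A.testBit (12 * j.1 + 2 * i.1 + 1))

theorem col_matF (A : ℕ) (j : Fin 6) : (fun i => matF om A i j) = vecF om (colC A j.1) := by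
  funext i
  have h : ∀ k < 12, (4095 : ℕ).testBit k = true := by decide
  simp only [matF, Matrix.of_apply, vecF, colC, show Nat.land (A >>> (12 * j.1)) 4095 = A >>> (12 * j.1) &&& 4095 from rfl,
    Nat.testBit_and, Nat.testBit_shiftRight, h _ (show 2 * i.1 < 12 by omega), h _ (show 2 * i.1 + 1 < 12 by omega),
    Bool.and_true, add_assoc]

theorem testBit_evM (n : ℕ) : evM.testBit n = decide (n < 12 ∧ n % 2 = 0) := by
  rcases Nat.lt_or_ge n 12 with h | h
  · revert n; decide
  · rw [Nat.testBit_eq_false_of_lt (lt_of_lt_of_le (by decide : evM < 2 ^ 12) (Nat.pow_le_pow_right (by norm_num) h))]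
    simp; omega

theorem testBit_low {k : ℕ} (h : k < 12) (v : ℕ) : (Nat.land v 4095).testBit k = v.testBit k := by
  have h' : ∀ k < 12, (4095 : ℕ).testBit k = true := by decide
  rw [show Nat.land v 4095 = v &&& 4095 from rfl, Nat.testBit_and, h' k h, Bool.and_true]

variable (hom : om * om = om + 1) (h2 : (1 : F) + 1 = 0)
include hom h2

theorem bF_xor (a b : Bool) : (bF (Bool.xor a b) : F) = bF a + bF b := by
  cases a <;> cases b <;> simp [bF, h2]

theorem fe_xor (a b c d : Bool) : fe om (Bool.xor a c) (Bool.xor b d) = fe om a b + fe om c d := by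
  simp only [fe, bF_xor om hom h2]; ring

theorem mul_om_fe (a b : Bool) : om * fe om a b = fe om b (Bool.xor a b) := by
  simp only [fe, bF_xor om hom h2]
  linear_combination (bF b : F) * hom

theorem vecF_xor (u v : ℕ) : vecF om (Nat.xor u v) = vecF om u + vecF om v := by
  funext i
  simp only [vecF, Pi.add_apply, show Nat.xor u v = u ^^^ v from rfl, Nat.testBit_xor,
    ← fe_xor om hom h2]

theorem vecF_zero : vecF om 0 = 0 := by
  funext i
  simp [vecF, fe, bF]

theorem vecF_low (v : ℕ) : vecF om (Nat.land v 4095) = vecF om v := by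
  funext i
  simp only [vecF, testBit_low (show 2 * i.1 < 12 by omega), testBit_low (show 2 * i.1 + 1 < 12 by omega)]

theorem vecF_sW (v : ℕ) : vecF om (sW v) = om • vecF om v := by
  funext i
  simp only [vecF, Pi.smul_apply, smul_eq_mul, mul_om_fe om hom h2, sW,
    show ∀ a b, Nat.lor a b = a ||| b from fun _ _ => rfl, show ∀ a b, Nat.land a b = a &&& b from fun _ _ => rfl,
    show ∀ a b, Nat.xor a b = a ^^^ b from fun _ _ => rfl,
    Nat.testBit_or, Nat.testBit_and, Nat.testBit_shiftLeft, Nat.testBit_shiftRight, Nat.testBit_xor, testBit_evM]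
  have e1 : 2 * i.1 < 12 := by omega
  have e2 : ¬ (2 * i.1 + 1) % 2 = 0 := by omega
  have e3 : 2 * i.1 + 1 - 1 = 2 * i.1 := by omega
  have e4 : 2 * i.1 = 0 ∨ ¬ (2 * i.1 - 1) % 2 = 0 := by omega
  rcases e4 with e4 | e4
  · simp [e1, e2, e3, e4, add_comm 1]
  · simp [e1, e2, e3, e4, add_comm 1]

theorem vecF_selC (lo hi : Bool) (c : ℕ) : vecF om (selC lo hi c) = fe om lo hi • vecF om c := by
  rw [selC, vecF_xor om hom h2]
  cases lo <;> cases hi <;> simp [vecF_sW om hom h2, vecF_zero om hom h2, fe, bF, add_smul]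

theorem vecF_mvN : ∀ (k A v : ℕ), vecF om (mvN k A v) =
    ∑ j ∈ Finset.range k, fe om (v.testBit (2 * j)) (v.testBit (2 * j + 1)) • vecF om (colC A j)
  | 0, A, v => by simp [mvN, vecF_zero om hom h2]
  | k + 1, A, v => by
    rw [mvN, vecF_xor om hom h2, vecF_selC om hom h2, vecF_mvN k, Finset.sum_range_succ', add_comm]
    congr 1
    · refine Finset.sum_congr rfl fun j _ => ?_
      simp only [colC, Nat.testBit_shiftRight, ← Nat.shiftRight_add]
      rw [show 2 + 2 * j = 2 * (j + 1) by ring, show 2 + (2 * j + 1) = 2 * (j + 1) + 1 by ring,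
        show 12 + 12 * j = 12 * (j + 1) by ring]

theorem mulVec_matF (A : ℕ) (x : Fin 6 → F) :
    matF om A *ᵥ x = ∑ j : Fin 6, x j • vecF om (colC A j.1) := by
  funext i
  simp only [Matrix.mulVec, dotProduct, Finset.sum_apply, Pi.smul_apply, smul_eq_mul]
  refine Finset.sum_congr rfl fun j _ => ?_
  rw [← col_matF om A j, mul_comm]

theorem vecF_mvC (A v : ℕ) : vecF om (mvC A v) = matF om A *ᵥ vecF om v := by
  rw [mvC, vecF_mvN om hom h2, mulVec_matF om hom h2, Finset.sum_range]
  rfl

theorem mvN_lt : ∀ k A v : ℕ, mvN k A v < 2 ^ 12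
  | 0, A, v => by simp [mvN]
  | k + 1, A, v => by
    refine Nat.xor_lt_two_pow ?_ (mvN_lt k _ _)
    have hA : A &&& 4095 < 2 ^ 12 := lt_of_le_of_lt Nat.and_le_right (by norm_num)
    have hs : sW (A &&& 4095) < 2 ^ 12 := by
      refine Nat.or_lt_two_pow (lt_of_le_of_lt Nat.and_le_right (by decide)) ?_
      have : Nat.land (Nat.xor (A &&& 4095) ((A &&& 4095) >>> 1)) evM ≤ evM := Nat.and_le_right
      rw [Nat.shiftLeft_eq]; simp only [evM] at this ⊢; omega
    refine Nat.xor_lt_two_pow ?_ ?_
    · cases v.testBit 0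
      · norm_num
      · exact hA
    · cases v.testBit 1
      · norm_num
      · exact hs

theorem colC_mmN (A : ℕ) : ∀ k B j : ℕ, j < k → colC (mmN A k B) j = mvC A (colC B j)
  | 0, B, j, h => absurd h (Nat.not_lt_zero j)
  | k + 1, B, 0, _ => by
    have hlt := mvN_lt om hom h2 6 A (Nat.land B 4095)
    simp only [mmN, force_eq, colC, mul_zero, Nat.shiftRight_zero, mvC] at hlt ⊢
    refine Nat.eq_of_testBit_eq fun i => ?_
    simp only [show ∀ a b, Nat.lor a b = a ||| b from fun _ _ => rfl,
      show ∀ a b, Nat.land a b = a &&& b from fun _ _ => rfl, Nat.testBit_and, Nat.testBit_or,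
      Nat.testBit_shiftLeft]
    rcases Nat.lt_or_ge i 12 with hi | hi
    · have h' : ∀ k < 12, (4095 : ℕ).testBit k = true := by decide
      simp [h' i hi, not_le.2 hi]
    · have hlt' : mvN 6 A (B &&& 4095) < 2 ^ 12 := hlt
      rw [Nat.testBit_eq_false_of_lt (lt_of_lt_of_le hlt' (Nat.pow_le_pow_right (by norm_num) hi)),
        Nat.testBit_eq_false_of_lt (lt_of_lt_of_le (by norm_num : 4095 < 2 ^ 12) (Nat.pow_le_pow_right (by norm_num) hi))]
      simp
  | k + 1, B, j + 1, h => by
    have hlt := mvN_lt om hom h2 6 A (Nat.land B 4095)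
    have e : mmN A (k + 1) B >>> 12 = mmN A k (B >>> 12) := by
      simp only [mmN, force_eq, mvC] at hlt ⊢
      refine Nat.eq_of_testBit_eq fun i => ?_
      simp only [show ∀ a b, Nat.lor a b = a ||| b from fun _ _ => rfl, Nat.testBit_shiftRight,
        Nat.testBit_or, Nat.testBit_shiftLeft]
      rw [Nat.testBit_eq_false_of_lt (lt_of_lt_of_le hlt (Nat.pow_le_pow_right (by norm_num) (Nat.le_add_right 12 i)))]
      simp
    have := colC_mmN A k (B >>> 12) j (by omega)
    simp only [colC] at this ⊢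
    rw [← e, ← Nat.shiftRight_add, show 12 + 12 * j = 12 * (j + 1) by ring, ← Nat.shiftRight_add,
      show 12 + 12 * j = 12 * (j + 1) by ring] at this
    exact this

theorem matF_mmC (A B : ℕ) : matF om (mmC A B) = matF om A * matF om B := by
  ext i j
  have := congrFun ((col_matF om (mmC A B) j).trans (congrArg (vecF om) (colC_mmN om hom h2 A 6 B j.1 j.2))) i
  rw [this, vecF_mvC om hom h2, ← col_matF om B j]
  rfl

theorem fe_mul_sq (a0 a1 b0 b1 : Bool) : fe om a0 a1 * fe om b0 b1 ^ 2 =
    fe om (Bool.xor (a0 && Bool.xor b0 b1) (a1 && b1)) (Bool.xor (a0 && b1) (a1 && b0)) := by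
  cases a0 <;> cases a1 <;> cases b0 <;> cases b1 <;> simp [fe, bF]
  all_goals first
    | linear_combination hom
    | linear_combination (1 + om) * hom + om * h2
    | grobner

theorem hermForm_vecF (u v : ℕ) : hermForm 6 F 2 (vecF om u) (vecF om v) =
    fe om (par (hLo u v)) (par (hHi u v)) := by
  have hbit : ∀ x, par x = Bool.xor (Bool.xor (Bool.xor (x.testBit 0) (x.testBit 2))
      (Bool.xor (x.testBit 4) (x.testBit 6))) (Bool.xor (x.testBit 8) (x.testBit 10)) := fun x => by
    simp only [par, show ∀ a b, Nat.xor a b = a ^^^ b from fun _ _ => rfl, Nat.testBit_xor, Nat.testBit_shiftRight]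
  rw [hbit, hbit, fe_xor om hom h2, fe_xor om hom h2, fe_xor om hom h2, fe_xor om hom h2, fe_xor om hom h2]
  simp only [hermForm, Fin.sum_univ_six, vecF, fe_mul_sq om hom h2, hLo, hHi,
    show ∀ a b, Nat.xor a b = a ^^^ b from fun _ _ => rfl,
    show ∀ a b, Nat.land a b = a &&& b from fun _ _ => rfl,
    Nat.testBit_xor, Nat.testBit_and, Nat.testBit_shiftRight, testBit_evM]
  simp [add_comm 1]
  ring

theorem hermForm_eq_zero_iff {u v : ℕ} :
    hermForm 6 F 2 (vecF om u) (vecF om v) = 0 ↔ orthC u v = true := by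
  rw [hermForm_vecF om hom h2, orthC]
  cases par (hLo u v) <;> cases par (hHi u v) <;> simp [fe, bF]
  · rintro rfl; simp at hom
  · intro h; exact one_ne_zero (by linear_combination hom - (om - 2) * h : (1 : F) = 0)

theorem matF_oneC : matF om oneC = 1 := by
  ext i j
  have h : ∀ i j : Fin 6, oneC.testBit (12 * j.1 + 2 * i.1) = decide (i = j) ∧
      oneC.testBit (12 * j.1 + 2 * i.1 + 1) = false := by decide
  simp only [matF, Matrix.of_apply, h i j, Matrix.one_apply]
  by_cases e : i = j <;> simp [e, fe, bF]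

end Sem

end Cfsg.Agent.H8.U62
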