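import Cfsg.Agent.H8.U62.Mono
import Cfsg.Agent.H8.U62.CheckFrames

/-!
# Classification of frames up to the monomial subgroup
-/

set_option autoImplicit false
set_option linter.unusedSectionVars false
set_option maxRecDepth 20000

namespace Cfsg.Agent.H8.U62

open Matrix Setup

variable {F : Type} [Setup F]

theorem mem_cliques : ∀ (k : ℕ) (c l : List ℕ), l.Sublist c →
    l.Pairwise (fun a b => orthC (repC a) (repC b) = true) → l.length = k → l ∈ cliques k c
  | 0, c, l, _, _, hl => by
    rw [List.length_eq_zero_iff] at hl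
    subst hl
    simp [cliques]
  | k + 1, c, l, hs, hp, hl => by
    induction c with
    | nil =>
      rw [List.sublist_nil] at hs
      subst hs
      simp at hl
    | cons a c ih =>
      show l ∈ clStep (cliques k) (a :: c)
      rw [clStep, force_eq, List.mem_append, List.mem_map]
      cases hs with
      | cons _ h => exact Or.inr (ih h)
      | cons_cons _ h =>
        rename_i l'
        rw [List.pairwise_cons] at hp
        refine Or.inl ⟨l', mem_cliques k _ l' ?_ hp.2 (by simpa using hl), rfl⟩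
        have := h.filter (fun b => orthC (repC a) (repC b))
        rwa [List.filter_eq_self.2 hp.1] at this

/-- The frame representative with number `r`. -/
noncomputable def rep (r : ℕ) : SU6 F := wordG (repW.getD r [])

theorem mat_rep {r : ℕ} (hr : r < 42) : mat (rep r : SU6 F) = matF om (repT.getD r 0) := by
  have h := reps_ok
  simp only [repsOK, Bool.and_eq_true, List.all_eq_true, List.mem_range] at h
  rw [rep, mat_wordG, Nat.eq_of_beq_eq_true (h.1.1.2 r hr)]

theorem act_val (g : SU6 F) {A : ℕ} (hA : mat g = matF om A) (i : Fin 672) :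
    (act g i).1 = ptC (mvC A (repC i.1)) := by
  show ptF (mat g *ᵥ vecF om (repC i.1)) = _
  rw [hA, ← vecF_mvC _ hom two, ptF_vecF]

theorem hermForm_smul_smul' (c d : F) (x y : Fin 6 → F) :
    hermForm 6 F 2 (c • x) (d • y) = (c * (d * d)) * hermForm 6 F 2 x y := by
  simp only [hermForm, Pi.smul_apply, smul_eq_mul, Finset.mul_sum]
  exact Finset.sum_congr rfl fun i _ => by ring

theorem fr_orth (g : SU6 F) {i k : Fin 672} (hi : i ∈ fr g) (hk : k ∈ fr g) (hne : i ≠ k) :
    orthC (repC i.1) (repC k.1) = true := by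
  obtain ⟨a, -, rfl⟩ := Finset.mem_image.1 hi
  obtain ⟨b, -, rfl⟩ := Finset.mem_image.1 hk
  have hab : a ≠ b := fun e => hne (by rw [e])
  have hv : ∀ j, ∃ c : F, c ≠ 0 ∧ vecF om (repC (act g (p0 j)).1) = c • (mat g *ᵥ eF j) := fun j => by
    rw [p0_eq (F := F), act_pt]
    exact (point_facts (unit_mulVec g (eF_unit j))).2.2
  obtain ⟨c, -, hc⟩ := hv a
  obtain ⟨d, -, hd⟩ := hv b
  refine (hermForm_eq_zero_iff (om : F) hom two).1 ?_
  rw [hc, hd, hermForm_smul_smul', herm_mulVec]
  have : orthC (1 <<< (2 * a.1)) (1 <<< (2 * b.1)) = true := by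
    revert hab; clear hv hc hd hne hi hk; revert a b; decide +kernel
  rw [show hermForm 6 F 2 (eF a : Fin 6 → F) (eF b) = 0 from (hermForm_eq_zero_iff _ hom two).2 this, mul_zero]

theorem card_fr (g : SU6 F) : (fr g).card = 6 := by
  show (Finset.univ.image (act g ∘ p0)).card = 6
  rw [Finset.card_image_of_injective _ ((act_injective g).comp p0_injective), Finset.card_univ,
    Fintype.card_fin]

/-- Every frame is a monomial image of a representative. -/
theorem classify (g : SU6 F) : ∃ r < 42, ∃ m ∈ monoE (F := F), fr g = fr (m * rep r) := by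
  have hpm := pt_move_ok
  simp only [ptMoveOK, List.all_eq_true, List.mem_range, Bool.and_eq_true] at hpm
  obtain ⟨⟨⟨hs, -⟩, -⟩, hm⟩ := hpm (act g (p0 0)).1 (act g (p0 0)).2
  set q := ptMove.getD (act g (p0 0)).1 (3, 0, 0)
  have hs3 : q.1 < 3 := Nat.le_of_ble_eq_true hs
  have hps : ∀ s < 3, ptRep.getD s 0 < 672 := by decide +kernel
  obtain ⟨m, hm', hmA⟩ := real_monC (F := F) q.2.1 q.2.2
  let ps : Fin 672 := ⟨ptRep.getD q.1 0, hps _ hs3⟩
  have hact : act m ps = act g (p0 0) := Fin.ext (by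
    rw [act_val m hmA]; exact Nat.eq_of_beq_eq_true hm)
  have hh0 : act (m⁻¹ * g) (p0 0) = ps := by
    rw [act_mul, ← hact, ← act_mul, inv_mul_cancel, act_one]
  generalize hh : m⁻¹ * g = h at hh0
  have hin : ps ∈ fr h := by
    rw [← hh0]; exact Finset.mem_image.2 ⟨0, Finset.mem_univ _, rfl⟩
  let cand := (List.range 672).filter fun b => orthC (repC ps.1) (repC b)
  let S : Finset ℕ := ((fr h).erase ps).image Fin.val
  let l := cand.filter fun b => decide (b ∈ S)
  have hmem : ∀ b, b ∈ l ↔ b ∈ S := fun b => by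
    simp only [l, cand, List.mem_filter, List.mem_range, decide_eq_true_eq]
    refine ⟨fun hb => hb.2, fun hb => ⟨?_, hb⟩⟩
    obtain ⟨i, hi, rfl⟩ := Finset.mem_image.1 hb
    rw [Finset.mem_erase] at hi
    exact ⟨i.2, fr_orth h hin hi.2 (Ne.symm hi.1)⟩
  have hnd : l.Nodup := (List.nodup_range.filter _).filter _
  have hlen : l.length = 5 := by
    rw [← List.toFinset_card_of_nodup hnd, show l.toFinset = S by ext b; rw [List.mem_toFinset, hmem],
      Finset.card_image_of_injective _ Fin.val_injective, Finset.card_erase_of_mem hin, card_fr]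
  have hcl : l ∈ cliques 5 cand := by
    refine mem_cliques 5 _ l List.filter_sublist ?_ hlen
    refine hnd.pairwise_of_forall_ne fun a ha b hb hab => ?_
    obtain ⟨i, hi, rfl⟩ := Finset.mem_image.1 ((hmem a).1 ha)
    obtain ⟨k, hk, rfl⟩ := Finset.mem_image.1 ((hmem b).1 hb)
    exact fr_orth h (Finset.mem_of_mem_erase hi) (Finset.mem_of_mem_erase hk) (fun e => hab (by rw [e]))
  have main : ∀ dat, frameOK q.1 dat = true → ∃ r < 42, ∃ m ∈ monoE (F := F), fr h = fr (m * rep r) := by
    intro dat hd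
    simp only [frameOK, force_eq, Bool.and_eq_true] at hd
    obtain ⟨hle, hall⟩ := hd
    obtain ⟨n, hn, hne⟩ := List.getElem_of_mem hcl
    have hn2 : n < dat.length := by rw [← Nat.eq_of_beq_eq_true hle]; exact hn
    have hz := List.all_eq_true.1 hall ((cliques 5 cand)[n], dat[n])
      (List.mem_iff_getElem.2 ⟨n, by rw [List.length_zip]; exact lt_min hn hn2, List.getElem_zip⟩)
    simp only [Bool.and_eq_true] at hz
    obtain ⟨⟨⟨hr, -⟩, -⟩, hmask⟩ := hz
    obtain ⟨m', hm1, hm2⟩ := real_monC (F := F) dat[n].2.1 dat[n].2.2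
    have hr' : dat[n].1 < 42 := Nat.le_of_ble_eq_true hr
    refine ⟨_, hr', m', hm1, ?_⟩
    have hA : mat (m' * rep dat[n].1) = matF om (mmC (monC dat[n].2.1 dat[n].2.2) (repT.getD dat[n].1 0)) := by
      rw [mat_mul, matF_mmC _ hom two, hm2, mat_rep hr']
    have hb := fun i : Fin 672 => testBit_frmC hA i.1
    rw [← Nat.eq_of_beq_eq_true hmask, hne] at hb
    ext i
    have h1 : (∃ k ∈ fr (m' * rep dat[n].1), k.1 = i.1) ↔ i ∈ fr (m' * rep dat[n].1) :=
      ⟨fun ⟨k, hk, e⟩ => Fin.ext e ▸ hk, fun hk => ⟨i, hk, rfl⟩⟩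
    rw [← h1, ← hb i, testBit_foldr (fun i => i), List.any_eq_true]
    simp only [decide_eq_true_eq]
    constructor
    · intro hi
      refine ⟨i.1, ?_, rfl⟩
      by_cases e : i = ps
      · exact List.mem_cons.2 (Or.inl (by rw [e]))
      · exact List.mem_cons.2 (Or.inr ((hmem _).2 (Finset.mem_image.2 ⟨i, Finset.mem_erase.2 ⟨e, hi⟩, rfl⟩)))
    · rintro ⟨b, hb', rfl⟩
      rcases List.mem_cons.1 hb' with e | e
      · rwa [show i = ps from Fin.ext e]
      · obtain ⟨k, hk, hk'⟩ := Finset.mem_image.1 ((hmem _).1 e)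
        rw [← Fin.ext hk']; exact Finset.mem_of_mem_erase hk
  obtain ⟨r, hr, m', hm1, hfr⟩ : ∃ r < 42, ∃ m ∈ monoE (F := F), fr h = fr (m * rep r) := by
    rcases (by omega : q.1 = 0 ∨ q.1 = 1 ∨ q.1 = 2) with e | e | e
    · exact main _ (e ▸ frame_ok0)
    · exact main _ (e ▸ frame_ok1)
    · exact main _ (e ▸ frame_ok2)
  refine ⟨r, hr, m * m', mul_mem hm' hm1, ?_⟩
  rw [mul_assoc, fr_mul m, ← hfr, ← hh, ← fr_mul, mul_inv_cancel_left]

end Cfsg.Agent.H8.U62
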