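import Cfsg.Agent.H8.U62.SubAct
import Cfsg.Agent.H8.U62.Frames
import Cfsg.Agent.H3.Count

/-!
# Elementary abelian subgroups of order 243 of `SU 6` and their normalisers
-/

set_option autoImplicit false
set_option linter.unusedSectionVars false
set_option maxRecDepth 20000
set_option maxHeartbeats 1000000

namespace Cfsg.Agent.H8.U62

open Matrix Setup Equiv

variable {F : Type} [Setup F]

/-- The diagonal subgroup. -/
noncomputable def diagG : Subgroup (SU6 F) := (diagS (F := F)).map (stab (F := F)).subtype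

theorem mem_diagG {g : SU6 F} : g ∈ diagG ↔ ∃ h : g ∈ stab, (⟨g, h⟩ : stab (F := F)) ∈ diagS := by
  rw [diagG, Subgroup.mem_map]
  constructor
  · rintro ⟨x, hx, rfl⟩; exact ⟨x.2, hx⟩
  · rintro ⟨h, hd⟩; exact ⟨_, hd, rfl⟩

theorem card_diagG : Nat.card (diagG (F := F)) = 243 := by
  rw [diagG, Subgroup.card_map_of_injective (Subgroup.subtype_injective _), card_diagS]

theorem diagG_le_monoE : diagG (F := F) ≤ monoE := fun g hg => by
  obtain ⟨h, hd⟩ := mem_diagG.1 hg
  exact diagS_le_monoE hd

theorem center_le_diagG : Subgroup.center (SU6 F) ≤ diagG := fun g hg => mem_diagG.2 (center_le_diag hg)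

/-- The nine permutations of a Sylow 3-subgroup of the permutation group. -/
def sylPerm (w : Fin 9) : Perm (Fin 6) :=
  (swap 0 1 * swap 1 2) ^ (w.1 / 3) * (swap 3 4 * swap 4 5) ^ (w.1 % 3)

theorem sylPerm_facts : (∀ v w, ∃ u, sylPerm v * sylPerm w = sylPerm u) ∧ (∀ v, ∃ u, (sylPerm v)⁻¹ = sylPerm u) ∧
    sylPerm 0 = 1 ∧ Function.Injective sylPerm ∧
    ∀ w : Fin 9, permOK (pTab.getD (sylP.getD w.1 0) oneC) (sylPerm w) = true := by
  decide +kernel

/-- A Sylow 3-subgroup of the permutation group. -/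
def sylW : Subgroup (Perm (Fin 6)) where
  carrier := Set.range sylPerm
  mul_mem' := by
    rintro _ _ ⟨v, rfl⟩ ⟨w, rfl⟩
    obtain ⟨u, hu⟩ := sylPerm_facts.1 v w
    exact ⟨u, hu.symm⟩
  one_mem' := ⟨0, sylPerm_facts.2.2.1⟩
  inv_mem' := by
    rintro _ ⟨v, rfl⟩
    obtain ⟨u, hu⟩ := sylPerm_facts.2.1 v
    exact ⟨u, hu.symm⟩

/-- A Sylow 3-subgroup. -/
noncomputable def syl : Subgroup (SU6 F) := (sylW.comap (perm (F := F))).map (stab (F := F)).subtype

theorem card_syl : Nat.card (syl (F := F)) = 3 ^ 7 := by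
  rw [syl, Subgroup.card_map_of_injective (Subgroup.subtype_injective _)]
  have hW : Nat.card sylW = 9 := by
    have e : Nat.card sylW = Nat.card (Set.range sylPerm) := rfl
    rw [e, Nat.card_range_of_injective sylPerm_facts.2.2.2.1, Nat.card_fin]
  have h1 := sylW.card_mul_index
  rw [hW, Nat.card_perm, Nat.card_fin, show Nat.factorial 6 = 720 from rfl] at h1
  have h2 := (sylW.comap (perm (F := F))).card_mul_index
  rw [Subgroup.index_comap_of_surjective _ perm_surjective, card_stab] at h2
  have : sylW.index = 80 := by omega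
  rw [this] at h2
  omega

theorem card_SU6 : Nat.card (SU6 F) = 27590492160 := by
  have h := H3.card_SU (hF (F := F)) (n := 6) (by norm_num)
  rw [H3.card_GU (hF (F := F))] at h
  simp [Finset.prod_range_succ, Nat.even_iff] at h
  show Nat.card (SU 6 F 2) = 27590492160
  omega

/-- An elementary abelian subgroup of order 243 is conjugate to the diagonal one. -/
theorem exists_conj_diagG (E : Subgroup (SU6 F)) (hE : Nat.card E = 243)
    (hc : ∀ x ∈ E, ∀ y ∈ E, x * y = y * x) :
    ∃ g : SU6 F, E.map (MulAut.conj g).toMonoidHom = diagG := by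
  classical
  have : Fact (Nat.Prime 3) := ⟨Nat.prime_three⟩
  have hi : ¬ 3 ∣ (syl (F := F)).index := by
    have h := (syl (F := F)).card_mul_index
    rw [card_syl, card_SU6] at h
    omega
  let P : Sylow 3 (SU6 F) := (IsPGroup.of_card (n := 7) card_syl).toSylow hi
  obtain ⟨Q, hQ⟩ := (IsPGroup.of_card (p := 3) (G := E) (n := 5) (by rw [hE]; norm_num)).exists_le_sylow
  obtain ⟨g, hg⟩ := MulAction.exists_smul_eq (SU6 F) Q P
  refine ⟨g, ?_⟩
  set E' := E.map (MulAut.conj g).toMonoidHom with hE'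
  have hE'c : Nat.card E' = 243 := by
    rw [hE', Subgroup.card_map_of_injective (MulEquiv.injective _), hE]
  have hE'ab : ∀ x ∈ E', ∀ y ∈ E', x * y = y * x := by
    intro x hx y hy
    obtain ⟨a, ha, rfl⟩ := Subgroup.mem_map.1 hx
    obtain ⟨b, hb, rfl⟩ := Subgroup.mem_map.1 hy
    rw [← map_mul, ← map_mul, hc a ha b hb]
  have hle : E' ≤ syl := by
    intro x hx
    obtain ⟨a, ha, rfl⟩ := Subgroup.mem_map.1 hx
    have h1 : g * a * g⁻¹ ∈ ((g • Q : Sylow 3 (SU6 F)) : Subgroup (SU6 F)) := by
      rw [Sylow.coe_subgroup_smul, Subgroup.mem_pointwise_smul_iff_inv_smul_mem]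
      simpa [MulAut.smul_def, mul_assoc] using hQ ha
    rw [hg] at h1
    exact h1
  have hs : E' ≤ stab := hle.trans fun x hx => by
    obtain ⟨y, -, rfl⟩ := Subgroup.mem_map.1 hx
    exact y.2
  let π : E' →* Perm (Fin 6) := (perm (F := F)).comp (Subgroup.inclusion hs)
  have hπ : π.range ≤ sylW := by
    rintro _ ⟨x, rfl⟩
    obtain ⟨y, hy, e⟩ := Subgroup.mem_map.1 (hle x.2)
    have : Subgroup.inclusion hs x = y := Subtype.ext e.symm
    show perm (Subgroup.inclusion hs x) ∈ sylW
    rw [this]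
    exact hy
  have hker : ∀ x : π.ker, x.1.1 ∈ diagG (F := F) := fun x =>
    mem_diagG.2 ⟨hs x.1.2, MonoidHom.mem_ker.1 x.2⟩
  have hk243 : Nat.card π.ker ≤ 243 := by
    rw [← card_diagG (F := F)]
    exact Nat.card_le_card_of_injective (fun x => (⟨x.1.1, hker x⟩ : diagG (F := F)))
      fun a b e => Subtype.ext (Subtype.ext (congrArg (fun z : diagG (F := F) => z.1) e))
  have hprod := π.ker.card_mul_index
  rw [Subgroup.index_ker, hE'c] at hprod
  by_cases htriv : π.range = ⊥
  · have hd : E' ≤ diagG := fun x hx => by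
      refine hker ⟨⟨x, hx⟩, MonoidHom.mem_ker.2 ?_⟩
      have : π ⟨x, hx⟩ ∈ π.range := ⟨_, rfl⟩
      rwa [htriv, Subgroup.mem_bot] at this
    exact Subgroup.eq_of_le_of_card_ge hd (by rw [card_diagG, hE'c])
  exfalso
  have comm : ∀ x : E', ∀ w : Fin 9, π x = sylPerm w → ∀ d : π.ker,
      ∃ a < 243, mat d.1.1 = matF om (dTab.getD a 0) ∧
        frmC (mmC (dTab.getD a 0) (pTab.getD (sylP.getD w.1 0) oneC)) =
          frmC (mmC (pTab.getD (sylP.getD w.1 0) oneC) (dTab.getD a 0)) ∧
        matF (om : F) (mmC (dTab.getD a 0) (pTab.getD (sylP.getD w.1 0) oneC)) =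
          matF om (mmC (pTab.getD (sylP.getD w.1 0) oneC) (dTab.getD a 0)) := by
    intro x w hw d
    obtain ⟨hds, hdd⟩ := mem_diagG.1 (hker d)
    obtain ⟨a, ha, hA⟩ := exists_idx_of_mem_diagS hdd
    obtain ⟨p, hp, hpA⟩ := real_pTab_getD (F := F) (sylP.getD w.1 0)
    obtain ⟨hps, hperm⟩ := perm_of_code hpA (sylPerm_facts.2.2.2.2 w)
    have hq : (⟨x.1, hs x.2⟩ : stab (F := F)) * ⟨p, hps⟩⁻¹ ∈ diagS := by
      refine MonoidHom.mem_ker.2 ?_
      rw [map_mul, map_inv, hperm, ← hw]
      exact mul_inv_cancel _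
    have h1 := diag_commute hq hdd
    have h2 := hE'ab x.1 x.2 d.1.1 d.1.2
    have h3 : d.1.1 * p = p * d.1.1 := by
      have e : x.1 * p⁻¹ * d.1.1 = d.1.1 * (x.1 * p⁻¹) := h1
      have e2 : (x.1 * p⁻¹) * (p * d.1.1) = (x.1 * p⁻¹) * (d.1.1 * p) := by
        calc (x.1 * p⁻¹) * (p * d.1.1) = x.1 * d.1.1 := by group
          _ = d.1.1 * x.1 := h2
          _ = d.1.1 * (x.1 * p⁻¹) * p := by group
          _ = x.1 * p⁻¹ * d.1.1 * p := by rw [e]
          _ = _ := by group
      exact (mul_left_cancel e2).symm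
    have e1 : mat (d.1.1 * p) = matF om (mmC (dTab.getD a 0) (pTab.getD (sylP.getD w.1 0) oneC)) := by
      rw [mat_mul, matF_mmC _ hom two, ← hA, ← hpA]
    have e2 : mat (p * d.1.1) = matF om (mmC (pTab.getD (sylP.getD w.1 0) oneC) (dTab.getD a 0)) := by
      rw [mat_mul, matF_mmC _ hom two, ← hA, ← hpA]
    refine ⟨a, ha, hA, (fr_eq_iff e1 e2).1 (by rw [h3]), ?_⟩
    rw [← e1, ← e2, h3]
  choose idx hidx hidxA hidxF hidxM using comm
  have codes : ∀ a < 243, ∀ w : Fin 9,
      matF (om : F) (mmC (dTab.getD a 0) (pTab.getD (sylP.getD w.1 0) oneC)) =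
        matF om (mmC (pTab.getD (sylP.getD w.1 0) oneC) (dTab.getD a 0)) →
      ∀ n < 72, (mmC (dTab.getD a 0) (pTab.getD (sylP.getD w.1 0) oneC)).testBit n =
        (mmC (pTab.getD (sylP.getD w.1 0) oneC) (dTab.getD a 0)).testBit n := by
    intro a _ w e n hn
    have hj : n / 12 < 6 := by omega
    have := congrFun (congrFun e ⟨n % 12 / 2, by omega⟩) ⟨n / 12, hj⟩
    simp only [matF, Matrix.of_apply] at this
    obtain ⟨e1, e2⟩ := fe_inj this
    rcases Nat.mod_two_eq_zero_or_one n with hp2 | hp2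
    · rwa [show 12 * (n / 12) + 2 * (n % 12 / 2) = n by omega] at e1
    · rwa [show 12 * (n / 12) + 2 * (n % 12 / 2) + 1 = n by omega] at e2
  let fix : Fin 9 → ℕ → Bool := fun w a =>
    Nat.beq (Nat.land (mmC (dTab.getD a 0) (pTab.getD (sylP.getD w.1 0) oneC)) (2 ^ 72 - 1))
      (Nat.land (mmC (pTab.getD (sylP.getD w.1 0) oneC) (dTab.getD a 0)) (2 ^ 72 - 1))
  have hfix : ∀ x w (hw : π x = sylPerm w) d, fix w (idx x w hw d) = true := by
    intro x w hw d
    have := codes _ (hidx x w hw d) w (hidxM x w hw d)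
    have key : ∀ u v : ℕ, u = v → Nat.beq u v = true := fun u v e => by subst e; exact Nat.beq_refl u
    refine key _ _ ?_
    show (_ : ℕ) &&& _ = (_ : ℕ) &&& _
    refine Nat.eq_of_testBit_eq fun n => ?_
    simp only [Nat.testBit_and, Nat.testBit_two_pow_sub_one]
    by_cases hn : n < 72
    · rw [this n hn]
    · simp [hn]
  have hbound : ∀ ws : List (Fin 9), (∀ w ∈ ws, ∃ x, π x = sylPerm w) →
      Nat.card π.ker ≤ ((Finset.range 243).filter fun a => ∀ w ∈ ws, fix w a = true).card ∨ ws = [] := by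
    intro ws hws
    match ws with
    | [] => exact Or.inr rfl
    | w :: ws =>
      left
      obtain ⟨x, hx⟩ := hws w (List.mem_cons_self ..)
      rw [← Nat.card_eq_finsetCard]
      refine Nat.card_le_card_of_injective (fun d => ⟨idx x w hx d, ?_⟩) fun d d' e => ?_
      · refine Finset.mem_filter.2 ⟨Finset.mem_range.2 (hidx x w hx d), fun v hv => ?_⟩
        obtain ⟨y, hy⟩ := hws v hv
        have e : idx y v hy d = idx x w hx d := by
          have h1 := (hidxA y v hy d).symm.trans (hidxA x w hx d)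
          rw [mon_facts.2.1.2 _ (hidx y v hy d), mon_facts.2.1.2 _ (hidx x w hx d),
            matF_diagE (dExp_lt _ (hidx y v hy d)), matF_diagE (dExp_lt _ (hidx x w hx d))] at h1
          have h2 := fun j => congrFun (Matrix.diagonal_injective h1) j
          have h3 : ∀ j : Fin 6, expD (dExp.getD (idx y v hy d) 243) j.1 = expD (dExp.getD (idx x w hx d) 243) j.1 :=
            fun j => om_pow_inj (by unfold expD; split <;> omega) (by unfold expD; split <;> omega) (h2 j)
          have key : ∀ a < 243, dPos.getD (dExp.getD a 243) 243 = a := by decide +kernel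
          have digits : ∀ a b : ℕ, a < 243 → b < 243 → (∀ j : Fin 6, expD a j.1 = expD b j.1) → a = b := by
            intro a b ha hb h
            have a0 := h 0
            have a1 := h 1
            have a2 := h 2
            have a3 := h 3
            have a4 := h 4
            simp [expD] at a0 a1 a2 a3 a4
            omega
          have := digits _ _ (dExp_lt _ (hidx y v hy d)) (dExp_lt _ (hidx x w hx d)) h3
          rw [← key _ (hidx y v hy d), ← key _ (hidx x w hx d), this]
        rw [← e]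
        exact hfix y v hy d
      · have e' : idx x w hx d = idx x w hx d' := congrArg Subtype.val e
        have h1 := hidxA x w hx d
        rw [e', ← hidxA x w hx d'] at h1
        exact Subtype.ext (Subtype.ext (ext_mat h1))
  have hr9 : Nat.card π.range ≤ 9 := by
    refine (Nat.card_le_card_of_injective _ (Subgroup.inclusion_injective hπ)).trans ?_
    have e : Nat.card sylW = Nat.card (Set.range sylPerm) := rfl
    rw [e, Nat.card_range_of_injective sylPerm_facts.2.2.2.1, Nat.card_fin]
  have hone : ∀ w : Fin 9, w ≠ 0 → ((Finset.range 243).filter fun a => fix w a = true).card ≤ 27 := by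
    decide +kernel
  have htwo : ((Finset.range 243).filter fun a => fix 1 a = true ∧ fix 3 a = true).card ≤ 9 := by
    decide +kernel
  by_cases hall : ∀ w, ∃ x, π x = sylPerm w
  · rcases hbound [1, 3] (fun w _ => hall w) with hb | hb
    · simp only [List.mem_cons, List.not_mem_nil, or_false, forall_eq_or_imp, forall_eq] at hb
      have := le_trans hb htwo
      have : Nat.card π.ker * Nat.card π.range ≤ 81 := Nat.mul_le_mul this hr9
      omega
    · exact List.cons_ne_nil _ _ hb
  · push Not at hall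
    obtain ⟨w0, hw0⟩ := hall
    have hlt : Nat.card π.range < 9 := by
      refine lt_of_le_of_ne hr9 fun e => ?_
      have hW : Nat.card sylW = 9 := by
        have e : Nat.card sylW = Nat.card (Set.range sylPerm) := rfl
        rw [e, Nat.card_range_of_injective sylPerm_facts.2.2.2.1, Nat.card_fin]
      have := Subgroup.eq_of_le_of_card_ge hπ (by rw [hW, e])
      obtain ⟨x, hx⟩ : sylPerm w0 ∈ π.range := by rw [this]; exact ⟨w0, rfl⟩
      exact hw0 x hx
    obtain ⟨σ, ⟨x, hx⟩, hσ⟩ := (Subgroup.bot_or_exists_ne_one π.range).resolve_left htriv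
    obtain ⟨w, hw⟩ : σ ∈ sylW := hπ ⟨x, hx⟩
    have hw1 : w ≠ 0 := fun e => hσ (by rw [← hw, e, sylPerm_facts.2.2.1])
    rcases hbound [w] (fun v hv => ⟨x, by rw [List.mem_singleton] at hv; rw [hv, hw, hx]⟩) with hb | hb
    · simp only [List.mem_cons, List.not_mem_nil, or_false, forall_eq] at hb
      have := le_trans hb (hone w hw1)
      have : Nat.card π.ker * Nat.card π.range ≤ 27 * 8 := Nat.mul_le_mul this (by omega)
      omega
    · exact List.cons_ne_nil _ _ hb

/-- The five generators of the diagonal group move every other point. -/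
theorem fixed_points : ∀ i : Fin 672, (∃ j : Fin 6, ptC (1 <<< (2 * j.1)) = i.1) ∨
    ∃ d : Fin 5, ptC (mvC (dGenC.getD d.1 oneC) (repC i.1)) ≠ i.1 := by
  decide +kernel

theorem real_dGenC (d : ℕ) : Real (diagG (F := F)) (dGenC.getD d oneC) := by
  have hmem : ∀ A ∈ dGenC, dTab.any (fun B => Nat.beq A B) = true := by decide +kernel
  refine Real.getD (fun A hA => ?_) d
  obtain ⟨B, hB, e⟩ := List.any_eq_true.1 (hmem A hA)
  rw [Nat.eq_of_beq_eq_true e]
  obtain ⟨g, -, hg⟩ := real_dTab (F := F) B hB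
  obtain ⟨n, hn, rfl⟩ := List.getElem_of_mem hB
  have hn' : n < 243 := by rw [← mon_facts.1.2.2.2]; exact hn
  obtain ⟨hs, hd⟩ := dTab_diag hn' (g := g) (by
    rw [hg, List.getD_eq_getElem?_getD, List.getElem?_eq_getElem hn]; rfl)
  exact ⟨g, mem_diagG.2 ⟨hs, hd⟩, hg⟩

/-- A subgroup of index two in the monomial group that normalises the diagonal group is `monoE`. -/
theorem eq_monoE_of_normalises (N : Subgroup (SU6 F)) (hN : Nat.card N = 87480)
    (hn : ∀ g ∈ N, ∀ d ∈ diagG, g⁻¹ * d * g ∈ diagG (F := F)) : N = monoE := by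
  have hle : N ≤ stab := by
    intro g hg
    have hfix : ∀ j, ∃ k, act g (p0 j) = p0 k := by
      intro j
      rcases fixed_points (act g (p0 j)) with ⟨k, hk⟩ | ⟨d, hd⟩
      · exact ⟨k, Fin.ext hk.symm⟩
      · exfalso
        obtain ⟨x, hx, hxA⟩ := real_dGenC (F := F) d.1
        refine hd ?_
        rw [← act_val x hxA]
        have hy := mem_diagG.1 (hn g hg x hx)
        obtain ⟨hys, hyd⟩ := hy
        have e : act (g⁻¹ * x * g) (p0 j) = p0 j := by
          rw [permFun_spec ⟨_, hys⟩, show permFun ⟨_, hys⟩ j = perm ⟨_, hys⟩ j from rfl,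
            MonoidHom.mem_ker.1 hyd]
          rfl
        conv_rhs => rw [← e, ← act_mul, show g * (g⁻¹ * x * g) = x * g by group, act_mul]
    show fr g = fr 1
    refine Finset.eq_of_subset_of_card_le (fun i hi => ?_) ?_
    · obtain ⟨j, -, rfl⟩ := Finset.mem_image.1 hi
      obtain ⟨k, hk⟩ := hfix j
      exact Finset.mem_image.2 ⟨k, Finset.mem_univ _, by rw [act_one, hk]⟩
    · rw [show (fr g).card = 6 from ?_, show (fr (1 : SU6 F)).card = 6 from ?_]
      all_goals
        rw [fr, show (fun j => act _ (p0 j)) = act _ ∘ p0 from rfl,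
          Finset.card_image_of_injective _ ((act_injective _).comp p0_injective), Finset.card_univ, Fintype.card_fin]
  have hi : (N.subgroupOf stab).index = 2 := by
    have h := (N.subgroupOf stab).card_mul_index
    rw [Nat.card_congr (Subgroup.subgroupOfEquivOfLe hle).toEquiv, hN, card_stab] at h
    omega
  have hsq : ∀ g : Fin 3, wordC (genW.getD g.1 [] ++ genW.getD g.1 []) ≠ 0 ∧
      ∃ n : Fin 4, wordC ((List.replicate (2 * n.1) (genW.getD g.1 [])).flatten) = wordC (genW.getD g.1 []) := by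
    decide +kernel
  refine (Subgroup.eq_of_le_of_card_ge ?_ (by rw [hN, card_monoE])).symm
  rw [monoE, Subgroup.closure_le]
  rintro _ ⟨g, rfl⟩
  obtain ⟨-, n, he⟩ := hsq g
  have hw : ∀ (k : ℕ) (l : List ℕ), (wordG ((List.replicate k l).flatten) : SU6 F) = wordG l ^ k := by
    intro k l
    induction k with
    | zero => rfl
    | succ k ih =>
      rw [List.replicate_succ, List.flatten_cons, pow_succ', ← ih, wordG, wordG, wordG, List.map_append,
        List.prod_append]
  have h1 : (wordG (genW.getD g.1 []) : SU6 F) = (wordG (genW.getD g.1 []) ^ n.1) ^ 2 := by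
    rw [← pow_mul, mul_comm, ← hw]
    exact ext_mat (by rw [mat_wordG, mat_wordG, he])
  have hs : (wordG (genW.getD g.1 []) : SU6 F) ∈ stab := (gen_perm g).1
  have := Subgroup.sq_mem_of_index_two hi (⟨_, hs⟩ ^ n.1)
  rw [Subgroup.mem_subgroupOf] at this
  show wordG (genW.getD g.1 []) ∈ N
  rw [h1]
  simpa using this

end Cfsg.Agent.H8.U62
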