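import Cfsg.Agent.H8.U62.Code

/-!
# Elements of the unitary group named by words in transvections
-/

set_option autoImplicit false
set_option linter.unusedSectionVars false

namespace Cfsg.Agent.H8.U62

open Matrix

/-- A field with four elements with a chosen generator of its units. -/
class Setup (F : Type) extends Field F where
  /-- The generator. -/
  om : F
  hom : om * om = om + 1
  two : (1 : F) + 1 = 0
  [fin : Fintype F]
  card : Fintype.card F = 4

namespace Setup

variable {F : Type} [Setup F]

instance : Fintype F := Setup.fin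

theorem hF : Fintype.card F = 2 ^ 2 := Setup.card

theorem om_ne_zero : (Setup.om : F) ≠ 0 := fun h => by
  have := Setup.hom (F := F); simp [h] at this

theorem om_ne_one : (Setup.om : F) ≠ 1 := fun h => by
  have := Setup.hom (F := F)
  rw [h, one_mul, Setup.two] at this
  exact one_ne_zero this

theorem one_add_om : (1 : F) + Setup.om = Setup.om * Setup.om := by rw [Setup.hom, add_comm]

theorem neg_one : (-1 : F) = 1 := by linear_combination -(Setup.two (F := F))

theorem sub_eq (a b : F) : a - b = a + b := by linear_combination (-b) * (Setup.two (F := F))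

/-- Every element is named by two bits. -/
theorem exists_fe (x : F) : ∃ a b, x = fe Setup.om a b := by
  classical
  have hinj : Function.Injective (fun p : Bool × Bool => fe (Setup.om : F) p.1 p.2) := by
    have h0 := om_ne_zero (F := F)
    have h1 := om_ne_one (F := F)
    have h2 : (1 : F) + Setup.om ≠ 0 := fun h => h1 (by linear_combination h - Setup.two (F := F))
    have h3 : (1 : F) + Setup.om ≠ Setup.om := fun h => one_ne_zero (by linear_combination h : (1 : F) = 0)
    have h4 : (1 : F) + Setup.om ≠ 1 := fun h => h0 (by linear_combination h)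
    rintro ⟨a, b⟩ ⟨c, d⟩ h
    cases a <;> cases b <;> cases c <;> cases d <;>
      simp_all [fe, bF, eq_comm]
  obtain ⟨⟨a, b⟩, h⟩ := ((Fintype.bijective_iff_injective_and_card _).2
    ⟨hinj, by simp [Setup.card (F := F)]⟩).2 x
  exact ⟨a, b, h.symm⟩

theorem fe_inj {a b c d : Bool} (h : fe (Setup.om : F) a b = fe Setup.om c d) : a = c ∧ b = d := by
  have hsum : fe (Setup.om : F) (Bool.xor a c) (Bool.xor b d) = 0 := by
    rw [fe_xor _ Setup.hom Setup.two, h, ← fe_xor _ Setup.hom Setup.two]
    simp [fe, bF]
  have h0 := om_ne_zero (F := F)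
  have h1 := om_ne_one (F := F)
  have h2 : (1 : F) + Setup.om ≠ 0 := fun h => h1 (by linear_combination h - Setup.two (F := F))
  revert hsum
  cases a <;> cases b <;> cases c <;> cases d <;> simp [fe, bF, h0, h2]

theorem testBit_of_vecF_eq {v w : ℕ} (h : vecF (Setup.om : F) v = vecF Setup.om w) :
    ∀ n < 12, v.testBit n = w.testBit n := by
  intro n hn
  have := fe_inj (congrFun h ⟨n / 2, by omega⟩)
  rcases Nat.mod_two_eq_zero_or_one n with e | e
  · simpa [show 2 * (n / 2) = n by omega] using this.1
  · simpa [show 2 * (n / 2) + 1 = n by omega] using this.2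

theorem low_eq_of_vecF_eq {v w : ℕ} (h : vecF (Setup.om : F) v = vecF Setup.om w) :
    Nat.land v 4095 = Nat.land w 4095 := by
  refine Nat.eq_of_testBit_eq fun n => ?_
  rcases Nat.lt_or_ge n 12 with hn | hn
  · rw [testBit_low hn, testBit_low hn, testBit_of_vecF_eq h n hn]
  · show (v &&& 4095).testBit n = (w &&& 4095).testBit n
    rw [Nat.testBit_eq_false_of_lt (lt_of_le_of_lt Nat.and_le_right
        (lt_of_lt_of_le (by norm_num : (4095 : ℕ) < 2 ^ 12) (Nat.pow_le_pow_right (by norm_num) hn))),
      Nat.testBit_eq_false_of_lt (lt_of_le_of_lt Nat.and_le_right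
        (lt_of_lt_of_le (by norm_num : (4095 : ℕ) < 2 ^ 12) (Nat.pow_le_pow_right (by norm_num) hn)))]

theorem exists_vecF (x : Fin 6 → F) : ∃ v : ℕ, v < 4096 ∧ vecF Setup.om v = x := by
  classical
  choose a b hab using fun i => exists_fe (x i)
  refine ⟨Nat.ofBits (n := 12) (fun k => if k.1 % 2 = 0 then a ⟨k.1 / 2, by omega⟩ else b ⟨k.1 / 2, by omega⟩),
    Nat.ofBits_lt_two_pow _, funext fun i => ?_⟩
  rw [vecF, hab i, Nat.testBit_ofBits_lt _ _ (by omega), Nat.testBit_ofBits_lt _ _ (by omega)]
  have h1 : (⟨(2 * i.1 + 1) / 2, by omega⟩ : Fin 6) = i := Fin.ext (by simp; omega)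
  simp [h1, show ¬ (2 * i.1 + 1) % 2 = 0 by omega]

end Setup

open Setup

variable {F : Type} [Setup F]

/-- The special unitary group in dimension six. -/
abbrev SU6 (F : Type) [Setup F] : Subgroup (Matrix.SpecialLinearGroup (Fin 6) F) := SU 6 F 2

/-- The matrix of an element. -/
abbrev mat (g : SU6 F) : Matrix (Fin 6) (Fin 6) F := g.1.1

theorem mat_mul (g h : SU6 F) : mat (g * h) = mat g * mat h := rfl

theorem mat_one : mat (1 : SU6 F) = 1 := rfl

theorem ext_mat {g h : SU6 F} (e : mat g = mat h) : g = h := Subtype.ext (Subtype.ext e)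

theorem herm_mulVec (g : SU6 F) (x y : Fin 6 → F) :
    hermForm 6 F 2 (mat g *ᵥ x) (mat g *ᵥ y) = hermForm 6 F 2 x y := H3.mem_SU_iff.1 g.2 x y

open Classical in
/-- The element of an atom. -/
noncomputable def atomG (v : ℕ) : SU6 F :=
  if h : hermForm 6 F 2 (vecF (om : F) v) (vecF om v) = 0 then
    H3.suTrans hF (vecF om v) 1 h (by rw [one_pow, two])
  else 1

theorem colC_transN (v : ℕ) : ∀ k j : ℕ, k ≤ 6 → j < k →
    colC (transN v k) j = Nat.land (Nat.xor (1 <<< (2 * j))
      (selC (Bool.xor (v.testBit (2 * j)) (v.testBit (2 * j + 1))) (v.testBit (2 * j + 1))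
        (Nat.land v 4095))) 4095
  | 0, j, _, h => absurd h (Nat.not_lt_zero j)
  | k + 1, j, hk, h => by
    have hb : ∀ (k' : ℕ), k' ≤ 6 → transN v k' < 2 ^ (12 * k') := by
      intro k' hk'
      induction k' with
      | zero => simp [transN]
      | succ m ih =>
        refine Nat.or_lt_two_pow (lt_of_lt_of_le (ih (by omega)) (Nat.pow_le_pow_right (by norm_num) (by omega))) ?_
        rw [Nat.shiftLeft_eq, show 12 * (m + 1) = 12 + 12 * m by ring, pow_add]
        refine Nat.mul_lt_mul_of_pos_right (Nat.xor_lt_two_pow ?_ ?_) (Nat.pow_pos (by norm_num))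
        · rw [Nat.one_shiftLeft]; exact Nat.pow_lt_pow_right (by norm_num) (by omega)
        · have h1 : Nat.land v 4095 < 2 ^ 12 := lt_of_le_of_lt Nat.and_le_right (by norm_num)
          have hs : sW (Nat.land v 4095) < 2 ^ 12 := by
            refine Nat.or_lt_two_pow (lt_of_le_of_lt Nat.and_le_right (by decide)) ?_
            have : Nat.land (Nat.xor (Nat.land v 4095) (Nat.land v 4095 >>> 1)) evM ≤ evM := Nat.and_le_right
            rw [Nat.shiftLeft_eq]; simp only [evM] at this ⊢; omega
          refine Nat.xor_lt_two_pow ?_ ?_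
          · cases Bool.xor (v.testBit (2 * m)) (v.testBit (2 * m + 1))
            · norm_num
            · exact h1
          · cases v.testBit (2 * m + 1)
            · norm_num
            · exact hs
    refine Nat.eq_of_testBit_eq fun i => ?_
    simp only [colC, transN, show ∀ a b, Nat.lor a b = a ||| b from fun _ _ => rfl,
      show ∀ a b, Nat.land a b = a &&& b from fun _ _ => rfl,
      Nat.testBit_and, Nat.testBit_or, Nat.testBit_shiftRight, Nat.testBit_shiftLeft]
    have hm : ∀ i, (4095 : ℕ).testBit i = decide (i < 12) := fun i => by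
      rw [show (4095 : ℕ) = 2 ^ 12 - 1 by norm_num, Nat.testBit_two_pow_sub_one]
    simp only [hm]
    by_cases hi : i < 12
    · rcases Nat.lt_succ_iff_lt_or_eq.1 h with h' | rfl
      · have := congrArg (fun x => x.testBit i) (colC_transN v k j (by omega) h')
        simp only [colC, show ∀ a b, Nat.land a b = a &&& b from fun _ _ => rfl, Nat.testBit_and,
          Nat.testBit_shiftRight, hm, hi, decide_true, Bool.and_true] at this
        simp [hi, this, show ¬ 12 * k ≤ 12 * j + i by omega]
      · simp [hi, Nat.testBit_eq_false_of_lt (lt_of_lt_of_le (hb j (by omega))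
            (Nat.pow_le_pow_right (by norm_num) (Nat.le_add_right (12 * j) i)))]
    · simp [hi]

theorem mat_atomG (v : ℕ) : mat (atomG v : SU6 F) = matF om (atomC v) := by
  classical
  by_cases h : hermForm 6 F 2 (vecF (om : F) v) (vecF om v) = 0
  · rw [atomG, dif_pos h, atomC, (hermForm_eq_zero_iff _ hom two).1 h, cond_true]
    refine Matrix.ext fun i j => ?_
    have hc := congrFun ((col_matF (om : F) (transN v 6) j).trans
      (congrArg (vecF om) (colC_transN v 6 j.1 le_rfl j.2))) i
    rw [hc, vecF_low _ hom two, vecF_xor _ hom two, Pi.add_apply, vecF_selC _ hom two, vecF_low _ hom two, Pi.smul_apply, smul_eq_mul]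
    show unitaryTransvection 6 2 (vecF om v) 1 i j = _
    rw [unitaryTransvection, one_smul, Matrix.add_apply, Matrix.vecMulVec_apply, Matrix.one_apply]
    congr 1
    · have hbit : ∀ a b : Fin 6, (1 <<< (2 * a.1) : ℕ).testBit (2 * b.1) = decide (b = a) ∧
          (1 <<< (2 * a.1) : ℕ).testBit (2 * b.1 + 1) = false := by decide
      by_cases e : i = j <;> simp [vecF, hbit, e, fe, bF]
    · rw [mul_comm]
      congr 1
      simp only [vecF]
      cases v.testBit (2 * j.1) <;> cases v.testBit (2 * j.1 + 1) <;> simp [fe, bF]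
      all_goals
        have h1 := Setup.hom (F := F)
        have h2 := Setup.two (F := F)
        grobner
  · rw [atomG, dif_neg h, atomC]
    have : orthC v v = false := by
      rcases hb : orthC v v with _ | _
      · rfl
      · exact absurd ((hermForm_eq_zero_iff _ hom two).2 hb) h
    rw [this, cond_false, matF_oneC _ hom two]
    rfl

/-- The element of a word. -/
noncomputable def wordG (l : List ℕ) : SU6 F := (l.map atomG).prod

theorem mat_wordG : ∀ l : List ℕ, mat (wordG l : SU6 F) = matF om (wordC l)
  | [] => (matF_oneC _ hom two).symm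
  | v :: l => by
    rw [wordC, force_eq, matF_mmC _ hom two, ← mat_atomG, ← mat_wordG l, ← mat_mul]
    rfl

theorem wordG_eq_of_code {l₁ l₂ : List ℕ} (h : wordC l₁ = wordC l₂) :
    (wordG l₁ : SU6 F) = wordG l₂ := ext_mat (by rw [mat_wordG, mat_wordG, h])

end Cfsg.Agent.H8.U62
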