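import Cfsg.Agent.H8.U62.Mono
import Cfsg.Agent.H8.U62.CheckSub

/-!
# The three subgroups
-/

set_option autoImplicit false
set_option linter.unusedSectionVars false
set_option maxRecDepth 20000

namespace Cfsg.Agent.H8.U62

open Matrix Setup

variable {F : Type} [Setup F]

/-- The word of a generator of the subgroup with number `i`. -/
def subGenW (i : Fin 3) : List (List ℕ) := genW ++ [subW.getD i.1 []]

/-- A generator of the subgroup with number `i`. -/
noncomputable def subGen (i : Fin 3) (g : Fin 4) : SU6 F := wordG ((subGenW i).getD g.1 [])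

/-- The subgroup with number `i`. -/
noncomputable def sub (i : Fin 3) : Subgroup (SU6 F) := Subgroup.closure (Set.range (subGen i))

theorem sub_ok (i : Fin 3) : subOK i.1 = true := by
  match i with
  | ⟨0, _⟩ => exact sub_ok0
  | ⟨1, _⟩ => exact sub_ok1
  | ⟨2, _⟩ => exact sub_ok2

theorem sub_facts (i : Fin 3) :
    (bld (subGenC i.1) (subTree.getD i.1 []) [oneC] = subT.getD i.1 [] ∧ (subT.getD i.1 []).length = 112 ∧
      ((subT.getD i.1 []).map frmC).Nodup) ∧
    (∀ g < 4, ∀ j < 112, ∃ q : ℕ × ℕ × ℕ, q.1 < 112 ∧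
      mmC ((subGenC i.1).getD g 0) ((subT.getD i.1 []).getD j 0) = subElC i.1 q ∧
      ((subPerm.getD i.1 []).getD g []).getD j 112 = q.1) ∧
    (∀ g < 4, ∃ q : ℕ × ℕ × ℕ, q.1 < 112 ∧ mmC tauC (mmC ((subGenC i.1).getD g 0) tauC) = subElC i.1 q) ∧
    (∃ T ∈ subT.getD i.1 [], frmC (mmC (genC.getD 0 0) T) ≠ frmC T) ∧
    (∀ j < 3, j ≠ i.1 → ∀ T ∈ subT.getD j [], frmC T ≠ frmC (subG.getD i.1 0)) ∧
    wordC (subW.getD i.1 []) = subG.getD i.1 0 := by
  have h := sub_ok i
  simp only [subOK, subIdxOK, Bool.and_eq_true, List.all_eq_true, List.any_eq_true, List.mem_range, force_eq,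
    Bool.or_eq_true, Bool.not_eq_true'] at h
  obtain ⟨⟨⟨⟨⟨⟨⟨h0, h1⟩, h2⟩, h3⟩, h4⟩, h5⟩, h6⟩, h7⟩ := h
  refine ⟨⟨beqList_sound h1, Nat.eq_of_beq_eq_true h2, (keysOK_sound _ _ h3).1⟩, fun g hg j hj => ?_,
    fun g hg => ?_, ?_, fun j hj hji T hT => ?_, Nat.eq_of_beq_eq_true h0⟩
  · exact ⟨_, Nat.le_of_ble_eq_true (h4 g hg j hj).1.1.1.1, Nat.eq_of_beq_eq_true (h4 g hg j hj).1.2,
      Nat.eq_of_beq_eq_true (h4 g hg j hj).2⟩
  · exact ⟨_, Nat.le_of_ble_eq_true (h5 g hg).1.1.1, Nat.eq_of_beq_eq_true (h5 g hg).2⟩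
  · obtain ⟨T, hT, hne⟩ := h6
    exact ⟨T, hT, Nat.ne_of_beq_eq_false hne⟩
  · rcases h7 j hj with e | e
    · exact absurd (Nat.eq_of_beq_eq_true e).symm hji
    · intro he
      rw [List.any_eq_false] at e
      exact e T hT (by rw [he]; exact Nat.beq_refl _)

theorem subGenC_eq (i : Fin 3) (g : Fin 4) : (subGenC i.1).getD g.1 0 = wordC ((subGenW i).getD g.1 []) := by
  revert i g; decide +kernel

theorem mat_subGen (i : Fin 3) (g : Fin 4) : mat (subGen i g : SU6 F) = matF om ((subGenC i.1).getD g.1 0) := by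
  rw [subGen, mat_wordG, subGenC_eq]

theorem monoE_le_sub (i : Fin 3) : monoE (F := F) ≤ sub i := by
  rw [monoE, Subgroup.closure_le]
  rintro _ ⟨g, rfl⟩
  refine Subgroup.subset_closure ⟨⟨g.1, by omega⟩, ?_⟩
  have : ∀ (i : Fin 3) (g : Fin 3), (subGenW i).getD g.1 [] = genW.getD g.1 [] := by decide +kernel
  show wordG _ = wordG _
  rw [this i g]

theorem real_subGenC (i : Fin 3) : ∀ A ∈ subGenC i.1, Real (sub (F := F) i) A := by
  intro A hA
  obtain ⟨n, hn, rfl⟩ := List.getElem_of_mem hA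
  have hl : ∀ i : Fin 3, (subGenC i.1).length = 4 := by decide +kernel
  refine ⟨subGen i ⟨n, by rw [hl] at hn; exact hn⟩, Subgroup.subset_closure ⟨_, rfl⟩, ?_⟩
  rw [mat_subGen, List.getD_eq_getElem?_getD, List.getElem?_eq_getElem hn, Option.getD_some]

theorem real_subT (i : Fin 3) : ∀ A ∈ subT.getD i.1 [], Real (sub (F := F) i) A := by
  rw [← (sub_facts i).1.1]; exact real_bld_one (real_subGenC i) _

theorem subT_mem {i : Fin 3} {j : ℕ} (hj : j < 112) : (subT.getD i.1 []).getD j 0 ∈ subT.getD i.1 [] := by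
  rw [List.getD_eq_getElem?_getD (l := subT.getD i.1 []),
    List.getElem?_eq_getElem (by rw [(sub_facts i).1.2.1]; exact hj)]
  exact List.getElem_mem _

/-- The transversal of the subgroup with number `i`. -/
noncomputable def subRep (i : Fin 3) (j : Fin 112) : SU6 F := (real_subT i _ (subT_mem j.2)).choose

theorem subRep_mem (i : Fin 3) (j : Fin 112) : subRep i j ∈ sub (F := F) i :=
  (real_subT i _ (subT_mem j.2)).choose_spec.1

theorem mat_subRep (i : Fin 3) (j : Fin 112) :
    mat (subRep i j : SU6 F) = matF om ((subT.getD i.1 []).getD j.1 0) :=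
  (real_subT i _ (subT_mem j.2)).choose_spec.2

theorem fr_subRep_injective (i : Fin 3) : Function.Injective fun j => fr (subRep i j : SU6 F) := by
  intro a b e
  have e' := (fr_eq_iff (mat_subRep i a) (mat_subRep i b)).1 e
  refine Fin.ext ((sub_facts i).1.2.2.getElem_inj_iff (hi := ?_) (hj := ?_) |>.1 ?_)
  · rw [List.length_map, (sub_facts i).1.2.1]; exact a.2
  · rw [List.length_map, (sub_facts i).1.2.1]; exact b.2
  · rw [List.getElem_map, List.getElem_map]
    have hget : ∀ (j : Fin 112), (subT.getD i.1 []).getD j.1 0 =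
        (subT.getD i.1 [])[j.1]'(by rw [(sub_facts i).1.2.1]; exact j.2) := fun j => by
      rw [List.getD_eq_getElem?_getD (l := subT.getD i.1 []), List.getElem?_eq_getElem]; rfl
    rw [← hget a, ← hget b]; exact e'

theorem subT_zero : ∀ i : Fin 3, (subT.getD i.1 []).getD 0 0 = oneC := by decide +kernel

theorem subRep_zero (i : Fin 3) : subRep i 0 = (1 : SU6 F) :=
  ext_mat (by rw [mat_subRep, mat_one, show (0 : Fin 112).1 = 0 from rfl, subT_zero, matF_oneC _ hom two])

/-- The permutation of the transversal by a generator. -/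
def subPermFun (i : Fin 3) (g : Fin 4) (j : Fin 112) : ℕ :=
  ((subPerm.getD i.1 []).getD g.1 []).getD j.1 112

theorem exists_sch (i : Fin 3) (g : Fin 4) (j : Fin 112) :
    ∃ k : Fin 112, ∃ m ∈ monoE (F := F), subGen i g * subRep i j = subRep i k * m ∧
      subPermFun i g j = k.1 := by
  obtain ⟨q, hq, he, hp⟩ := (sub_facts i).2.1 g.1 g.2 j.1 j.2
  obtain ⟨m, hm, hmA⟩ := real_monC (F := F) q.2.1 q.2.2
  refine ⟨⟨q.1, hq⟩, m, hm, ext_mat ?_, hp⟩
  rw [mat_mul, mat_mul, mat_subGen, mat_subRep, mat_subRep, hmA, ← matF_mmC _ hom two, he,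
    subElC, matF_mmC _ hom two]

theorem exists_decomp (i : Fin 3) {x : SU6 F} (hx : x ∈ sub i) :
    ∃ j : Fin 112, ∃ m ∈ monoE (F := F), x = subRep i j * m := by
  have hclos : Submonoid.closure (Set.range (subGen (F := F) i)) = (sub (F := F) i).toSubmonoid :=
    Subgroup.closure_toSubmonoid_of_finite.symm
  have hx' : x ∈ (sub (F := F) i).toSubmonoid := hx
  rw [← hclos] at hx'
  induction hx' using Submonoid.closure_induction_left with
  | one => exact ⟨0, 1, one_mem _, by rw [subRep_zero, mul_one]⟩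
  | mul_left s hs y hy ih =>
    obtain ⟨g, rfl⟩ := hs
    obtain ⟨j, m, hm, rfl⟩ := ih (by rw [hclos] at hy; exact hy)
    obtain ⟨k, m', hm', e, -⟩ := exists_sch (F := F) i g j
    exact ⟨k, m' * m, mul_mem hm' hm, by rw [← mul_assoc, e, mul_assoc]⟩

theorem fr_mul_monoE (g : SU6 F) {m : SU6 F} (hm : m ∈ monoE) : fr (g * m) = fr g :=
  fr_mul_stab g (monoE_le_stab hm)

theorem card_sub (i : Fin 3) : Nat.card (sub (F := F) i) = 9797760 := by
  let ψ : Fin 112 × monoE (F := F) → sub (F := F) i := fun p =>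
    ⟨subRep i p.1 * p.2.1, mul_mem (subRep_mem i p.1) (monoE_le_sub i p.2.2)⟩
  have hψ : Function.Bijective ψ := by
    refine ⟨?_, fun x => ?_⟩
    · rintro ⟨a, s⟩ ⟨b, t⟩ e
      have e' : subRep i a * s.1 = subRep i b * t.1 := congrArg Subtype.val e
      have hab : a = b := fr_subRep_injective (F := F) i (by
        show fr (subRep i a) = fr (subRep i b)
        rw [← fr_mul_monoE (subRep i a) s.2, ← fr_mul_monoE (subRep i b) t.2, e'])
      subst hab
      exact Prod.ext rfl (Subtype.ext (mul_left_cancel e'))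
    · obtain ⟨j, m, hm, e⟩ := exists_decomp i x.2
      exact ⟨(j, ⟨m, hm⟩), Subtype.ext e.symm⟩
  rw [← Nat.card_congr (Equiv.ofBijective ψ hψ), Nat.card_prod, Nat.card_fin, card_monoE]

theorem tau_conj_sub (i : Fin 3) {x : SU6 F} (hx : x ∈ sub i) : tau * x * tau ∈ sub (F := F) i := by
  induction hx using Subgroup.closure_induction with
  | mem x hx =>
    obtain ⟨g, rfl⟩ := hx
    obtain ⟨q, hq, he⟩ := (sub_facts i).2.2.1 g.1 g.2
    have hr : Real (sub (F := F) i) (subElC i.1 q) :=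
      (real_subT i _ (subT_mem hq)).mmC ((real_monC q.2.1 q.2.2).mono (monoE_le_sub i))
    refine hr.mem ?_
    rw [mat_mul, mat_mul, mat_tau, mat_subGen, ← he, matF_mmC _ hom two, matF_mmC _ hom two,
      Matrix.mul_assoc]
  | one => rw [mul_one, tau_mul_self]; exact one_mem _
  | mul x y _ _ hx hy =>
    have e : tau * (x * y) * tau = (tau * x * tau) * (tau * y * tau) := by
      calc tau * (x * y) * tau = tau * x * (tau * tau) * y * tau := by rw [tau_mul_self]; group
        _ = _ := by group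
    rw [e]; exact mul_mem hx hy
  | inv x _ hx =>
    have e : tau * x⁻¹ * tau = (tau * x * tau)⁻¹ := by
      have ht : (tau : SU6 F)⁻¹ = tau := inv_eq_of_mul_eq_one_right tau_mul_self
      rw [_root_.mul_inv_rev, _root_.mul_inv_rev, ht, mul_assoc]
    rw [e]; exact inv_mem hx

/-- The monomial group normalises each of the three subgroups. -/
theorem stab_conj_sub (i : Fin 3) {u x : SU6 F} (hu : u ∈ stab) (hx : x ∈ sub i) :
    u * x * u⁻¹ ∈ sub (F := F) i := by
  have hm : ∀ {m : SU6 F}, m ∈ monoE → ∀ {y : SU6 F}, y ∈ sub i → m * y * m⁻¹ ∈ sub (F := F) i :=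
    fun h y hy => mul_mem (mul_mem (monoE_le_sub i h) hy) (inv_mem (monoE_le_sub i h))
  rcases stab_cases hu with h | h
  · exact hm h hx
  · have := tau_conj_sub i (hm h hx)
    have e : tau * (tau * u * x * (tau * u)⁻¹) * tau = u * x * u⁻¹ := by
      calc tau * (tau * u * x * (tau * u)⁻¹) * tau = (tau * tau) * u * x * u⁻¹ := by group
        _ = _ := by rw [tau_mul_self, one_mul]
    rwa [e] at this

theorem sub_injective {i j : Fin 3} (h : sub (F := F) i = sub j) : i = j := by
  by_contra hne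
  have hk : subGen i 3 ∈ sub (F := F) j := by rw [← h]; exact Subgroup.subset_closure ⟨3, rfl⟩
  obtain ⟨a, m, hm, e⟩ := exists_decomp j hk
  have hkA : mat (subGen i 3 : SU6 F) = matF om (subG.getD i.1 0) := by
    rw [mat_subGen]
    have : ∀ i : Fin 3, (subGenC i.1).getD (3 : Fin 4).1 0 = subG.getD i.1 0 := by decide +kernel
    rw [this]
  have hf : fr (subGen i 3 : SU6 F) = fr (subRep j a : SU6 F) := by rw [e, fr_mul_monoE _ hm]
  exact (sub_facts i).2.2.2.2.1 j.1 j.2 (fun e => hne (Fin.ext e.symm)) _ (subT_mem a.2)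
    ((fr_eq_iff hkA (mat_subRep j a)).1 hf).symm

end Cfsg.Agent.H8.U62
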