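import Cfsg.Agent.H8.U62.Frames
import Cfsg.Agent.H8.U62.Subs

/-!
# Subgroups of the given order over the monomial subgroup, and conjugacy of the three
-/

set_option autoImplicit false
set_option linter.unusedSectionVars false
set_option maxRecDepth 20000
set_option maxHeartbeats 1000000

namespace Cfsg.Agent.H8.U62

open Matrix Setup

variable {F : Type} [Setup F]

theorem mat_genC_append {K : Subgroup (SU6 F)} (hK : monoE ≤ K) {A : SU6 F} (hA : A ∈ K) {c : ℕ}
    (hc : mat A = matF om c) : ∀ B ∈ genC ++ [c], Real K B := by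
  intro B hB
  rcases List.mem_append.1 hB with hB | hB
  · exact (real_genC B hB).mono hK
  · rw [List.mem_singleton] at hB; subst hB; exact ⟨A, hA, hc⟩

theorem reps_cases {r : ℕ} (hr0 : r ≠ 0) (hr : r < 42) :
    (∃ t, (r, t) ∈ bigReps) ∨ r ∈ smallReps := by
  have h := reps_ok
  simp only [repsOK, Bool.and_eq_true, List.all_eq_true, List.mem_range, Bool.or_eq_true, List.any_eq_true] at h
  rcases h.2 (r - 1) (by omega) with ⟨q, hq, e⟩ | ⟨q, hq, e⟩
  · have e' : q.1 = r := by rw [Nat.eq_of_beq_eq_true e]; omega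
    exact Or.inl ⟨q.2, by rw [← e']; exact hq⟩
  · have e' : q = r := by rw [Nat.eq_of_beq_eq_true e]; omega
    exact Or.inr (e' ▸ hq)

theorem rep_zero : (rep 0 : SU6 F) = 1 := by
  have h := reps_ok
  simp only [repsOK, Bool.and_eq_true] at h
  refine ext_mat ?_
  rw [mat_rep (by norm_num), Nat.eq_of_beq_eq_true h.1.2, matF_oneC _ hom two, mat_one]

/-- An element extending the monomial subgroup. -/
noncomputable def ext (r e : ℕ) : SU6 F := rep r * bif Nat.beq e 1 then tau else 1

theorem mat_ext (r e : ℕ) : mat (ext r e : SU6 F) = matF om (extC r e) := by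
  have h : (ext r e : SU6 F) = wordG (repW.getD r [] ++ bif Nat.beq e 1 then tauW else []) := by
    rw [ext, rep, wordG, wordG, List.map_append, List.prod_append]
    cases Nat.beq e 1 <;> rfl
  rw [h, mat_wordG]
  rfl

theorem fr_ext (r e : ℕ) : fr (ext r e : SU6 F) = fr (rep r : SU6 F) := by
  rw [ext]
  cases Nat.beq e 1
  · rw [cond_false, mul_one]
  · rw [cond_true, fr_mul_stab _ tau_perm.1]

/-- A subgroup of the right order over the monomial subgroup is one of the three. -/
theorem eq_sub_of_monoE_le {K : Subgroup (SU6 F)} (hK : monoE ≤ K) (hcard : Nat.card K = 9797760) :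
    ∃ i, K = sub i := by
  have hns : ¬ K ≤ stab := fun h => by
    have := Nat.card_le_card_of_injective _ (Subgroup.inclusion_injective h)
    rw [hcard, card_stab] at this
    omega
  obtain ⟨g, hgK, hgs⟩ := SetLike.not_le_iff_exists.1 hns
  obtain ⟨r, hr, m, hm, hfr⟩ := classify g
  have hu : (rep r)⁻¹ * (m⁻¹ * g) ∈ stab := by
    have := fr_eq_iff_mem.1 hfr
    rwa [_root_.mul_inv_rev, mul_assoc] at this
  have hmg : m⁻¹ * g ∈ K := mul_mem (inv_mem (hK hm)) hgK
  have hr0 : r ≠ 0 := by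
    rintro rfl
    refine hgs ?_
    rw [rep_zero, inv_one, one_mul] at hu
    simpa using mul_mem (monoE_le_stab hm) hu
  have hext : ∃ e < 2, ext r e ∈ K := by
    rcases stab_cases hu with h | h
    · refine ⟨0, by norm_num, ?_⟩
      have : ext r 0 = m⁻¹ * g * ((rep r)⁻¹ * (m⁻¹ * g))⁻¹ := by
        rw [ext, show Nat.beq 0 1 = false from rfl, cond_false]; group
      rw [this]
      exact mul_mem hmg (inv_mem (hK h))
    · refine ⟨1, by norm_num, ?_⟩
      have : ext r 1 = m⁻¹ * g * (tau * ((rep r)⁻¹ * (m⁻¹ * g)))⁻¹ := by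
        rw [ext, show Nat.beq 1 1 = true from rfl, cond_true, _root_.mul_inv_rev,
          inv_eq_of_mul_eq_one_right (tau_mul_self (F := F))]
        group
      rw [this]
      exact mul_mem hmg (inv_mem (hK h))
  obtain ⟨e, he, heK⟩ := hext
  rcases reps_cases hr0 hr with ⟨t, ht⟩ | hsmall
  · exfalso
    have h := big_ok
    simp only [bigOK, List.all_eq_true] at h
    have hb := treeOK_bound (H := monoE) monoE_le_stab (K := K) (fun A hA => (real_genC A hA).mono hK)
      (h _ ht) (u := rep r) (mat_rep hr) (fun s hs => ?_)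
    · rw [hcard, card_monoE] at hb; omega
    · rcases stab_cases hu with hh | hh
      · have e0 : rep r = m⁻¹ * g * ((rep r)⁻¹ * (m⁻¹ * g))⁻¹ := by group
        have hrep : rep r ∈ K := by rw [e0]; exact mul_mem hmg (inv_mem (hK hh))
        exact mul_mem (mul_mem hrep (hK hs)) (inv_mem hrep)
      · have e0 : rep r * tau = m⁻¹ * g * (tau * ((rep r)⁻¹ * (m⁻¹ * g)))⁻¹ := by
          rw [_root_.mul_inv_rev, inv_eq_of_mul_eq_one_right (tau_mul_self (F := F))]; group
        have hrt : rep r * tau ∈ K := by rw [e0]; exact mul_mem hmg (inv_mem (hK hh))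
        have e1 : rep r * s * (rep r)⁻¹ = rep r * tau * (tau * s * tau) * (rep r * tau)⁻¹ := by
          calc rep r * s * (rep r)⁻¹ = rep r * (tau * tau) * s * (tau * tau⁻¹) * (rep r)⁻¹ := by
                rw [tau_mul_self]; group
            _ = _ := by group
        rw [e1]
        exact mul_mem (mul_mem hrt (hK (tau_conj_monoE hs))) (inv_mem hrt)
  · have h := ext_ok
    simp only [extOK, subIdxOK, force_eq, List.all_eq_true, Bool.and_eq_true, Bool.or_eq_true,
      List.any_eq_true, List.mem_range] at h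
    obtain ⟨⟨⟨hbig, hodd⟩, hin⟩, hcov⟩ := h
    have hconj : ∀ s ∈ monoE, (1 : SU6 F) * s * 1⁻¹ ∈ K := fun s hs => by simpa using hK hs
    rcases hcov r hsmall e he with ((⟨q, hq, h1, h2⟩ | ⟨q, hq, h1, h2⟩) | ⟨q, hq, h1, h2⟩)
    · exfalso
      have hb := treeOK_bound (H := monoE) monoE_le_stab (K := K) (mat_genC_append hK heK (mat_ext r e))
        (u := 1) (base := oneC) (n := 113) (t := q.2.2)
        (by rw [← Nat.eq_of_beq_eq_true h1, ← Nat.eq_of_beq_eq_true h2]; exact hbig q hq)
        (by rw [mat_one, matF_oneC _ hom two]) hconj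
      rw [hcard, card_monoE] at hb
      omega
    · exfalso
      have hgens := mat_genC_append hK heK (mat_ext r e)
      have ho := hodd q hq
      rw [Nat.eq_of_beq_eq_true h1, Nat.eq_of_beq_eq_true h2] at ho
      obtain ⟨⟨⟨⟨⟨⟨htree, hf1⟩, hf2⟩, hf3⟩, -⟩, -⟩, hrel⟩ := ho
      obtain ⟨a, haK, haA⟩ := (Real.getD hgens q.2.2.2.1)
      have hels := real_bld_one hgens q.2.2.1
      have hget : ∀ {l : List ℕ} {n : ℕ}, n < l.length → l.getD n 0 = l.getD n oneC := fun hn => by
        rw [List.getD_eq_getElem?_getD, List.getD_eq_getElem?_getD, List.getElem?_eq_getElem hn]; rfl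
      obtain ⟨b, hbK, hbA⟩ := Real.getD hels q.2.2.2.2.1
      obtain ⟨c, hcK, hcA⟩ := Real.getD hels q.2.2.2.2.2.1
      obtain ⟨d, hd, hdA⟩ := real_monC (F := F) q.2.2.2.2.2.2.1 q.2.2.2.2.2.2.2
      have hlen : (genC ++ [extC r e]).length = 4 := by
        have : genC.length = 3 := by decide +kernel
        simp [this]
      rw [hget (by rw [hlen]; exact Nat.le_of_ble_eq_true hf1), hget (Nat.le_of_ble_eq_true hf2),
        hget (Nat.le_of_ble_eq_true hf3)] at hrel
      have hab : a * b = c * (tau * d) := ext_mat (by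
        rw [mat_mul, mat_mul, mat_mul, haA, hbA, hcA, mat_tau, hdA, ← matF_mmC _ hom two, ← matF_mmC _ hom two,
          ← matF_mmC _ hom two, Nat.eq_of_beq_eq_true hrel])
      have ht : tau ∈ K := by
        have e0 : tau = c⁻¹ * (a * b) * d⁻¹ := by rw [hab]; group
        rw [e0]
        exact mul_mem (mul_mem (inv_mem hcK) (mul_mem haK hbK)) (inv_mem (hK hd))
      have hst : stab ≤ K := fun x hx => by
        rcases stab_cases hx with h | h
        · exact hK h
        · have : x = tau * (tau * x) := by rw [← mul_assoc, tau_mul_self, one_mul]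
          rw [this]; exact mul_mem ht (hK h)
      have hb := treeOK_bound (H := stab) le_rfl (K := K) hgens htree (u := 1)
        (by rw [mat_one, matF_oneC _ hom two]) (fun s hs => by simpa using hst hs)
      rw [hcard, card_stab] at hb
      omega
    · obtain ⟨⟨⟨hi, ⟨⟨hq1, -⟩, -⟩⟩, hA⟩, htree⟩ := hin q hq
      rw [Nat.eq_of_beq_eq_true h1, Nat.eq_of_beq_eq_true h2] at hA htree
      refine ⟨⟨q.2.2.1, Nat.le_of_ble_eq_true hi⟩, ?_⟩
      set i : Fin 3 := ⟨q.2.2.1, Nat.le_of_ble_eq_true hi⟩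
      have hmem : (ext r e : SU6 F) ∈ sub i :=
        (Real.mmC (real_subT i _ (subT_mem (Nat.le_of_ble_eq_true hq1)))
          ((real_monC q.2.2.2.1.2.1 q.2.2.2.1.2.2).mono (monoE_le_sub i))).mem (by
          rw [mat_ext, Nat.eq_of_beq_eq_true hA]; rfl)
      have hle : monoE ≤ K ⊓ sub i := le_inf hK (monoE_le_sub i)
      have hb := treeOK_bound (H := monoE) monoE_le_stab (K := K ⊓ sub i)
        (mat_genC_append hle (Subgroup.mem_inf.2 ⟨heK, hmem⟩) (mat_ext r e)) htree (u := 1)
        (by rw [mat_one, matF_oneC _ hom two]) (fun s hs => by simpa using hle hs)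
      rw [card_monoE] at hb
      have e1 : K ⊓ sub i = K := Subgroup.eq_of_le_of_card_ge inf_le_left (by omega)
      have e2 : K ⊓ sub i = sub i := Subgroup.eq_of_le_of_card_ge inf_le_right (by rw [card_sub]; omega)
      exact e1.symm.trans e2

theorem map_conj_eq_iff {G : Type*} [Group G] {K L : Subgroup G} {g : G}
    (h : K.map (MulAut.conj g).toMonoidHom = L) {x : G} : g * x * g⁻¹ ∈ L ↔ x ∈ K := by
  rw [← h]
  constructor
  · rintro ⟨y, hy, e⟩
    have : g * y * g⁻¹ = g * x * g⁻¹ := e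
    rwa [← mul_left_cancel (mul_right_cancel this)]
  · exact fun hx => ⟨x, hx, rfl⟩

/-- The three subgroups are pairwise not conjugate. -/
theorem sub_conj_eq {i j : Fin 3} {g : SU6 F} (h : (sub i).map (MulAut.conj g).toMonoidHom = sub j) :
    i = j := by
  obtain ⟨r, hr, m, hm, hfr⟩ := classify g
  have hu : (rep r)⁻¹ * (m⁻¹ * g) ∈ stab := by
    have := fr_eq_iff_mem.1 hfr
    rwa [_root_.mul_inv_rev, mul_assoc] at this
  have hrep : ∀ x, x ∈ sub i → rep r * x * (rep r)⁻¹ ∈ sub (F := F) j := by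
    intro x hx
    have hx' : ((rep r)⁻¹ * (m⁻¹ * g))⁻¹ * x * ((rep r)⁻¹ * (m⁻¹ * g)) ∈ sub (F := F) i := by
      simpa using stab_conj_sub i (inv_mem hu) hx
    have h1 := (map_conj_eq_iff h).2 hx'
    have hmj := monoE_le_sub j hm
    have h2 := mul_mem (mul_mem (inv_mem hmj) h1) hmj
    have e : m⁻¹ * (g * (((rep r)⁻¹ * (m⁻¹ * g))⁻¹ * x * ((rep r)⁻¹ * (m⁻¹ * g))) * g⁻¹) * m =
        rep r * x * (rep r)⁻¹ := by group
    rwa [e] at h2
  have hbound : ∀ {gens : List ℕ} {t : List (ℕ × ℕ)}, (∀ A ∈ gens, Real (sub (F := F) j) A) →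
      treeOK gens t (repT.getD r 0) 113 = true → False := fun hg ht => by
    have hb := treeOK_bound (H := monoE) monoE_le_stab hg ht (u := rep r) (mat_rep hr)
      (fun s hs => hrep s (monoE_le_sub i hs))
    rw [card_monoE, card_sub] at hb
    omega
  have hstab : ∀ u : SU6 F, u ∈ stab → (∀ x, x ∈ sub i → u * x * u⁻¹ ∈ sub (F := F) j) → i = j := by
    intro u hu hux
    refine sub_injective (F := F) (Subgroup.eq_of_le_of_card_ge (fun x hx => ?_) (by rw [card_sub, card_sub]))
    have := hux _ (stab_conj_sub i (inv_mem hu) hx)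
    simpa [mul_assoc] using this
  by_cases hr0 : r = 0
  · subst hr0
    exact hstab 1 (one_mem _) fun x hx => by simpa [rep_zero] using hrep x hx
  rcases reps_cases hr0 hr with ⟨t, ht⟩ | hsmall
  · have hb := big_ok
    simp only [bigOK, List.all_eq_true] at hb
    exact (hbound (gens := genC) (t := t) (fun A hA => (real_genC A hA).mono (monoE_le_sub j)) (hb (r, t) ht)).elim
  · have hc := conj_ok
    simp only [conjOK, List.all_eq_true, Bool.and_eq_true, Bool.or_eq_true, List.any_eq_true, List.mem_range] at hc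
    obtain ⟨⟨hbig, hin⟩, hcov⟩ := hc
    rcases hcov r hsmall j.1 j.2 with ⟨q, hq, h1, h2⟩ | ⟨q, hq, h1, h2⟩
    · have := (hbig q hq).2
      rw [Nat.eq_of_beq_eq_true h1, Nat.eq_of_beq_eq_true h2] at this
      exact (hbound (real_subGenC j) this).elim
    · obtain ⟨⟨-, hk⟩, hmask⟩ := hin q hq
      rw [Nat.eq_of_beq_eq_true h1, Nat.eq_of_beq_eq_true h2] at hmask
      have hk' := Nat.le_of_ble_eq_true hk
      have hf : fr (rep r : SU6 F) = fr (subRep j ⟨q.2.2, hk'⟩) :=
        (fr_eq_iff (mat_rep hr) (mat_subRep j _)).2 (Nat.eq_of_beq_eq_true hmask)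
      refine hstab _ (fr_eq_iff_mem.1 hf) fun x hx => ?_
      have hj := subRep_mem (F := F) j ⟨q.2.2, hk'⟩
      have h2 := mul_mem (mul_mem (inv_mem hj) (hrep x hx)) hj
      have e : (subRep j ⟨q.2.2, hk'⟩)⁻¹ * (rep r * x * (rep r)⁻¹) * subRep j ⟨q.2.2, hk'⟩ =
          (subRep j ⟨q.2.2, hk'⟩)⁻¹ * rep r * x * ((subRep j ⟨q.2.2, hk'⟩)⁻¹ * rep r)⁻¹ := by group
      rwa [e] at h2

end Cfsg.Agent.H8.U62
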