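import Cfsg.Agent.H8.U62.Elementary
import Cfsg.Agent.H8.U62.Over
import Cfsg.Agent.H8.U62.SubIso

/-!
# The three classes of subgroups
-/

set_option autoImplicit false
set_option linter.unusedSectionVars false
set_option maxRecDepth 20000
set_option maxHeartbeats 1000000

namespace Cfsg.Agent.H8.U62

open Matrix Setup

variable {F : Type} [Setup F] {L : Type} [Setup9 L]

/-- A subgroup between the scalars and the diagonal group that is normalised by the monomial subgroup. -/
theorem diag_irreducible (R : Subgroup (SU6 F)) (hc : Subgroup.center (SU6 F) ≤ R) (hd : R ≤ diagG)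
    (hn : ∀ m ∈ monoE, ∀ x ∈ R, m * x * m⁻¹ ∈ R) : R = Subgroup.center (SU6 F) ∨ R = diagG := by
  by_cases h : R ≤ Subgroup.center (SU6 F)
  · exact Or.inl (le_antisymm h hc)
  obtain ⟨x, hxR, hxz⟩ := SetLike.not_le_iff_exists.1 h
  obtain ⟨hs, hxd⟩ := mem_diagG.1 (hd hxR)
  have hg := gen_zero_mem_of_diag hn hxd hxR hxz
  have hgen : ∀ A ∈ dGenC, Real R A := by
    intro A hA
    obtain ⟨q, hq, rfl⟩ := List.mem_map.1 hA
    have hinv : ∀ q ∈ dGen, mmC (pTab.getD q.1 oneC) (pTab.getD q.2 oneC) = oneC := by decide +kernel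
    obtain ⟨p, hp, hpA⟩ := real_pTab_getD (F := F) q.1
    obtain ⟨p', hp', hpA'⟩ := real_pTab_getD (F := F) q.2
    have hpp : p' = p⁻¹ := eq_inv_of_mul_eq_one_right (ext_mat (by
      rw [mat_mul, hpA, hpA', ← matF_mmC _ hom two, hinv q hq, matF_oneC _ hom two, mat_one]))
    refine ⟨p * wordG (genW.getD 0 []) * p⁻¹, hn p hp _ hg, ?_⟩
    have h0 : genC.getD 0 oneC = wordC (genW.getD 0 []) := genC_getD 0
    rw [← hpp, mat_mul, mat_mul, hpA, hpA', mat_wordG, ← h0, matF_mmC _ hom two, matF_mmC _ hom two,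
      Matrix.mul_assoc]
  refine Or.inr (le_antisymm hd fun g hg => ?_)
  obtain ⟨hs', hgd⟩ := mem_diagG.1 hg
  obtain ⟨a, ha, hA⟩ := exists_idx_of_mem_diagS hgd
  have hm : dTab.getD a 0 ∈ bld dGenC dTree [oneC] := by
    rw [mon_facts.1.2.2.1, List.getD_eq_getElem?_getD, List.getElem?_eq_getElem (by rw [mon_facts.1.2.2.2]; exact ha)]
    exact List.getElem_mem _
  exact (real_bld_one hgen dTree _ hm).mem hA

section Idem

variable {K : Subgroup (SU6 F)}

/-- Too many independent operators. -/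
theorem commutative_of_irreducible (hZ : Nat.card (Subgroup.center K) = 3) (E : Subgroup K)
    (hE : Nat.card E = 243) (hZE : Subgroup.center K ≤ E) (hcm : ∀ x ∈ E, ∀ y ∈ E, x * y * x⁻¹ * y⁻¹ ∈ Subgroup.center K)
    (hcen : ∀ u ∈ E, (∀ x ∈ E, x * u = u * x) → u ∈ Subgroup.center K) : False := by
  classical
  have hfin : Fact (Nat.Prime 3) := ⟨Nat.prime_three⟩
  have hnt : Nontrivial (Subgroup.center K) := Finite.one_lt_card_iff_nontrivial.1 (by rw [hZ]; norm_num)
  obtain ⟨⟨z0, hz0c⟩, hz0⟩ := exists_ne (1 : Subgroup.center K)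
  have hz0' : z0 ≠ 1 := fun e => hz0 (Subtype.ext e)
  have hord : orderOf z0 = 3 := by
    refine orderOf_eq_prime ?_ hz0'
    have := pow_card_eq_one' (G := Subgroup.center K) (x := ⟨z0, hz0c⟩)
    rw [hZ] at this
    exact congrArg Subtype.val this
  have hpow : ∀ z ∈ Subgroup.center K, ∃ n : ℕ, z = z0 ^ n := by
    intro z hz
    have he : Subgroup.zpowers z0 = Subgroup.center K :=
      Subgroup.eq_of_le_of_card_ge (by rwa [Subgroup.zpowers_le]) (by rw [hZ, Nat.card_zpowers, hord])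
    rw [← he] at hz
    obtain ⟨n, e⟩ := (mem_powers_iff_mem_zpowers.2 hz : z ∈ Submonoid.powers z0)
    exact ⟨n, e.symm⟩
  let m : K →* Matrix (Fin 6) (Fin 6) F := { toFun := fun x => mat x.1, map_one' := mat_one, map_mul' := fun a b => mat_mul a.1 b.1 }
  have h2 : ∀ A : Matrix (Fin 6) (Fin 6) F, A + A = 0 := fun A => by
    ext i j
    show A i j + A i j = 0
    linear_combination A i j * two (F := F)
  have hm0 : m z0 ≠ 1 := fun e => hz0' (Subtype.ext (ext_mat (e.trans mat_one.symm)))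
  have hm3 : m z0 * (m z0 * m z0) = 1 := by
    rw [← map_mul, ← map_mul, ← pow_three, ← hord, pow_orderOf_eq_one, map_one]
  obtain ⟨μ, hμ, he0⟩ : ∃ μ : F, (μ = om ∨ μ = om * om) ∧ 1 + μ • m z0 + (μ * μ) • (m z0 * m z0) ≠ 0 := by
    by_contra hno
    push Not at hno
    have e1 := hno om (Or.inl rfl)
    have e2 := hno (om * om) (Or.inr rfl)
    have hs : (om : F) + om * om = 1 := by linear_combination hom (F := F) + om * two (F := F)
    have hs2 : (om : F) * om + om * om * (om * om) = 1 := by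
      linear_combination hs + om * cube_eq_one (om_ne_zero (F := F))
    have hsum : m z0 + m z0 * m z0 = 0 := by
      have e3 : (1 : Matrix (Fin 6) (Fin 6) F) + 1 + ((om : F) + om * om) • m z0 +
          ((om : F) * om + om * om * (om * om)) • (m z0 * m z0) = 0 := by
        rw [add_smul, add_smul]
        calc _ = (1 + (om : F) • m z0 + (om * om : F) • (m z0 * m z0)) +
              (1 + (om * om : F) • m z0 + (om * om * (om * om) : F) • (m z0 * m z0)) := by abel
          _ = 0 := by rw [e1, e2, add_zero]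
      rwa [hs, hs2, h2, zero_add, one_smul, one_smul] at e3
    refine hm0 ?_
    have e4 : m z0 * m z0 = m z0 := by
      calc m z0 * m z0 = m z0 * m z0 + (m z0 + m z0) := by rw [h2, add_zero]
        _ = (m z0 + m z0 * m z0) + m z0 := by abel
        _ = m z0 := by rw [hsum, zero_add]
    calc m z0 = m z0 * (m z0 * (m z0 * m z0)) := by rw [hm3, mul_one]
      _ = m z0 * m z0 * (m z0 * m z0) := by rw [mul_assoc]
      _ = m z0 * (m z0 * m z0) := by rw [e4]
      _ = 1 := hm3
  set e := 1 + μ • m z0 + (μ * μ) • (m z0 * m z0)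
  have hμ0 : μ ≠ 0 := by
    rcases hμ with rfl | rfl
    · exact om_ne_zero
    · exact mul_ne_zero om_ne_zero om_ne_zero
  have hμ1 : μ * μ ≠ 1 := by
    intro h
    have hc := cube_eq_one hμ0
    rw [h, one_mul] at hc
    rcases hμ with rfl | rfl
    · exact om_ne_one hc
    · have := cube_eq_one (om_ne_zero (F := F))
      rw [hc, one_mul] at this
      exact om_ne_one this
  have hze : m z0 * e = (μ * μ) • e := by
    have hc := cube_eq_one hμ0
    simp only [e, mul_add, mul_one, mul_smul_comm, hm3, smul_add, smul_smul]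
    rw [hc, show μ * μ * (μ * μ) = μ by linear_combination μ * hc, one_smul]
    abel
  have hcomm : ∀ x : K, m x * e = e * m x := by
    intro x
    have hxz : m x * m z0 = m z0 * m x := by
      rw [← map_mul, ← map_mul, Subgroup.mem_center_iff.1 hz0c x]
    have hxz2 : m x * (m z0 * m z0) = m z0 * m z0 * m x := by rw [← mul_assoc, hxz, mul_assoc, hxz, ← mul_assoc]
    simp only [e, mul_add, add_mul, mul_one, one_mul, mul_smul_comm, smul_mul_assoc, hxz, hxz2]
  have hzpow : ∀ n : ℕ, m (z0 ^ n) * e = (μ * μ) ^ n • e := by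
    intro n
    induction n with
    | zero => simp
    | succ n ih => rw [pow_succ, map_mul, mul_assoc, hze, mul_smul_comm, ih, smul_smul, ← pow_succ']
  have hex : ∀ z : Subgroup.center K, ∃ c : F, m z.1 * e = c • e := fun z => by
    obtain ⟨n, hn⟩ := hpow z.1 z.2
    exact ⟨_, hn ▸ hzpow n⟩
  choose χ hχ using hex
  have huniq : ∀ {a b : F}, a • e = b • e → a = b := fun h => smul_left_injective F he0 h
  have χmul : ∀ a b, χ (a * b) = χ a * χ b := fun a b => huniq (by
    rw [← hχ, Subgroup.coe_mul, map_mul, mul_assoc, hχ b, mul_smul_comm, hχ a, smul_smul, mul_comm])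
  have χone : χ 1 = 1 := huniq (by rw [← hχ, Subgroup.coe_one, map_one, one_mul, one_smul])
  have χker : ∀ z, χ z = 1 → z = 1 := by
    intro z hz
    obtain ⟨n, hn⟩ := hpow z.1 z.2
    have h1 := hzpow n
    rw [← hn, hχ, hz, one_smul] at h1
    have h2 : (1 : F) = (μ * μ) ^ n := huniq (by rw [one_smul]; exact h1)
    have h3 : (μ * μ) ^ 3 = 1 := by
      linear_combination (μ * μ * μ + 1) * cube_eq_one hμ0
    have h4 : orderOf (μ * μ) = 3 := orderOf_eq_prime h3 hμ1
    have h5 : 3 ∣ n := h4 ▸ orderOf_dvd_of_pow_eq_one h2.symm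
    refine Subtype.ext (hn.trans ?_)
    exact orderOf_dvd_iff_pow_eq_one.1 (hord.symm ▸ h5)
  let Z : Subgroup E := (Subgroup.center K).subgroupOf E
  have hZc : Nat.card Z = 3 := by
    rw [Nat.card_congr (Subgroup.subgroupOfEquivOfLe hZE).toEquiv, hZ]
  have hQ : Nat.card (E ⧸ Z) = 81 := by
    have := Z.card_eq_card_quotient_mul_card_subgroup
    rw [hE, hZc] at this
    omega
  let cm : E → E → Subgroup.center K := fun x y => ⟨x.1 * y.1 * x.1⁻¹ * y.1⁻¹, hcm _ x.2 _ y.2⟩
  have hcmx : ∀ x x' u, cm (x * x') u = cm x u * cm x' u := by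
    intro x x' u
    refine Subtype.ext ?_
    show x.1 * x'.1 * u.1 * (x.1 * x'.1)⁻¹ * u.1⁻¹ = x.1 * u.1 * x.1⁻¹ * u.1⁻¹ * (x'.1 * u.1 * x'.1⁻¹ * u.1⁻¹)
    have hc : x.1 * (x'.1 * u.1 * x'.1⁻¹ * u.1⁻¹) = x'.1 * u.1 * x'.1⁻¹ * u.1⁻¹ * x.1 :=
      Subgroup.mem_center_iff.1 (hcm _ x'.2 _ u.2) x.1
    calc x.1 * x'.1 * u.1 * (x.1 * x'.1)⁻¹ * u.1⁻¹
        = x.1 * (x'.1 * u.1 * x'.1⁻¹ * u.1⁻¹) * u.1 * x.1⁻¹ * u.1⁻¹ := by group
      _ = x'.1 * u.1 * x'.1⁻¹ * u.1⁻¹ * (x.1 * u.1 * x.1⁻¹ * u.1⁻¹) := by rw [hc]; group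
      _ = _ := (Subgroup.mem_center_iff.1 (hcm _ x'.2 _ u.2) _).symm
  have hcmu : ∀ x u w, cm x (u * w) = cm x u * cm x w := by
    intro x u w
    refine Subtype.ext ?_
    show x.1 * (u.1 * w.1) * x.1⁻¹ * (u.1 * w.1)⁻¹ = x.1 * u.1 * x.1⁻¹ * u.1⁻¹ * (x.1 * w.1 * x.1⁻¹ * w.1⁻¹)
    have hc : u.1 * (x.1 * w.1 * x.1⁻¹ * w.1⁻¹) = x.1 * w.1 * x.1⁻¹ * w.1⁻¹ * u.1 :=
      Subgroup.mem_center_iff.1 (hcm _ x.2 _ w.2) u.1
    calc x.1 * (u.1 * w.1) * x.1⁻¹ * (u.1 * w.1)⁻¹
        = x.1 * u.1 * x.1⁻¹ * (x.1 * w.1 * x.1⁻¹ * w.1⁻¹) * u.1⁻¹ := by group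
      _ = x.1 * u.1 * x.1⁻¹ * u.1⁻¹ * (u.1 * (x.1 * w.1 * x.1⁻¹ * w.1⁻¹)) * u.1⁻¹ := by group
      _ = _ := by rw [hc]; group
  let v : E ⧸ Z → Matrix (Fin 6) (Fin 6) F := fun q => e * m q.out.1
  have hli : LinearIndependent F v := by
    rw [Fintype.linearIndependent_iff]
    intro c hc q0
    have hconj : ∀ (x : E) (q : E ⧸ Z), m x.1 * v q * m x.1⁻¹ = χ (cm x q.out) • v q := by
      intro x q
      calc m x.1 * (e * m q.out.1) * m x.1⁻¹ = e * m (x.1 * q.out.1 * x.1⁻¹) := by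
            rw [← mul_assoc, hcomm, map_mul, map_mul, mul_assoc, mul_assoc, mul_assoc]
        _ = e * m ((cm x q.out).1 * q.out.1) := by
            congr 2; show _ = x.1 * q.out.1 * x.1⁻¹ * q.out.1⁻¹ * q.out.1; group
        _ = _ := by
            rw [map_mul, ← mul_assoc, ← hcomm, hχ, smul_mul_assoc]
    have hx : ∀ x : E, ∑ q, (c q * χ (cm x (q0.out⁻¹ * q.out))) • v q = 0 := by
      intro x
      have h1 : ∑ q, (c q * χ (cm x q.out)) • v q = 0 := by
        have := congrArg (fun A => m x.1 * A * m x.1⁻¹) hc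
        simp only [Finset.mul_sum, Finset.sum_mul, mul_smul_comm, smul_mul_assoc, hconj, smul_smul, mul_zero,
          zero_mul] at this
        exact this
      have h2 := congrArg (fun A => χ (cm x q0.out⁻¹) • A) h1
      simp only [Finset.smul_sum, smul_smul, smul_zero] at h2
      refine Eq.trans (Finset.sum_congr rfl fun q _ => ?_) h2
      rw [hcmu, χmul]
      ring_nf
    have hsum : ∑ q, ((∑ x : E, c q * χ (cm x (q0.out⁻¹ * q.out))) • v q) = 0 := by
      simp only [Finset.sum_smul]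
      rw [Finset.sum_comm]
      exact Finset.sum_eq_zero fun x _ => hx x
    rw [Finset.sum_eq_single q0] at hsum
    · simp only [inv_mul_cancel] at hsum
      have hone : ∀ x : E, χ (cm x 1) = 1 := fun x => by
        have : cm x 1 = 1 := Subtype.ext (by
          show x.1 * (1 : E).1 * x.1⁻¹ * (1 : E).1⁻¹ = 1
          rw [Subgroup.coe_one, mul_one, inv_one, mul_one, mul_inv_cancel])
        rw [this, χone]
      simp only [hone, mul_one, Finset.sum_const, Finset.card_univ] at hsum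
      rw [← Nat.card_eq_fintype_card, hE, nsmul_eq_mul] at hsum
      have hodd : ((243 : ℕ) : F) = 1 := by
        push_cast
        linear_combination (121 : F) * two (F := F)
      rw [hodd, one_mul] at hsum
      by_contra hne
      have h5 := congrArg (fun A => (c q0)⁻¹ • A * m q0.out.1⁻¹) hsum
      simp only [smul_smul, inv_mul_cancel₀ hne, one_smul, v, smul_zero, zero_mul] at h5
      rw [mul_assoc, ← map_mul, mul_inv_cancel, map_one, mul_one] at h5
      exact he0 h5
    · intro q _ hq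
      have hu : ∃ y : E, cm y (q0.out⁻¹ * q.out) ≠ 1 := by
        by_contra hno
        push Not at hno
        refine hq ?_
        have hin : (q0.out⁻¹ * q.out) ∈ Z := by
          refine Subgroup.mem_subgroupOf.2 (hcen _ (q0.out⁻¹ * q.out).2 fun x hx => ?_)
          have := congrArg Subtype.val (hno ⟨x, hx⟩)
          have e1 : x * (q0.out⁻¹ * q.out : E).1 * x⁻¹ * (q0.out⁻¹ * q.out : E).1⁻¹ = 1 := this
          calc x * (q0.out⁻¹ * q.out : E).1 = x * (q0.out⁻¹ * q.out : E).1 * x⁻¹ *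
                (q0.out⁻¹ * q.out : E).1⁻¹ * ((q0.out⁻¹ * q.out : E).1 * x) := by group
            _ = _ := by rw [e1, one_mul]
        rw [← QuotientGroup.out_eq' q, ← QuotientGroup.out_eq' q0]
        exact (QuotientGroup.eq.2 hin).symm
      obtain ⟨y, hy⟩ := hu
      have hz : ∑ x : E, c q * χ (cm x (q0.out⁻¹ * q.out)) = 0 := by
        rw [← Finset.mul_sum]
        have hs : χ (cm y (q0.out⁻¹ * q.out)) * ∑ x : E, χ (cm x (q0.out⁻¹ * q.out)) =
            ∑ x : E, χ (cm x (q0.out⁻¹ * q.out)) := by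
          rw [Finset.mul_sum]
          simp only [← χmul, ← hcmx]
          exact Equiv.sum_comp (Equiv.mulLeft y) (fun x => χ (cm x (q0.out⁻¹ * q.out)))
        have : (χ (cm y (q0.out⁻¹ * q.out)) - 1) * ∑ x : E, χ (cm x (q0.out⁻¹ * q.out)) = 0 := by
          rw [sub_mul, hs, one_mul, sub_self]
        rcases mul_eq_zero.1 this with h | h
        · exact absurd (χker _ (sub_eq_zero.1 h)) hy
        · rw [h, mul_zero]
      rw [hz, zero_smul]
    · exact fun h => absurd (Finset.mem_univ _) h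
  have hdim := hli.fintype_card_le_finrank
  rw [← Nat.card_eq_fintype_card, hQ, Module.finrank_matrix] at hdim
  simp at hdim

end Idem

/-- A subgroup with the given structure is conjugate to one of the three. -/
theorem exists_conj_eq_sub (K : Subgroup (SU6 F)) (hZ : Nat.card (Subgroup.center K) = 3)
    (hφ : Nonempty (K ⧸ Subgroup.center K ≃* PSU 4 L 3)) :
    ∃ (g : SU6 F) (i : Fin 3), K.map (MulAut.conj g).toMonoidHom = sub i := by
  obtain ⟨φ⟩ := hφ
  obtain ⟨φ0⟩ := sub_mod_center_iso (F := F) (L := L) 0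
  set Z0 := (Subgroup.center (SU6 F)).subgroupOf (sub (F := F) 0) with hZ0'
  have hZ0 : (Subgroup.center (SU6 F)).subgroupOf (sub (F := F) 0) = Z0 := hZ0'.symm
  let ψ : K →* sub (F := F) 0 ⧸ Z0 := (φ.trans φ0.symm).toMonoidHom.comp (QuotientGroup.mk' (Subgroup.center K))
  have hψs : Function.Surjective ψ := (φ.trans φ0.symm).surjective.comp (QuotientGroup.mk'_surjective _)
  have hψk : ψ.ker = Subgroup.center K := by
    ext x
    rw [MonoidHom.mem_ker]
    show (φ.trans φ0.symm) (QuotientGroup.mk' _ x) = 1 ↔ _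
    rw [map_eq_one_iff _ (φ.trans φ0.symm).injective]
    exact QuotientGroup.eq_one_iff x
  have hcQ : Nat.card (sub (F := F) 0 ⧸ Z0) = 3265920 := by
    have := Z0.card_eq_card_quotient_mul_card_subgroup
    rw [card_sub, ← hZ0, Nat.card_congr (Subgroup.subgroupOfEquivOfLe (center_le_sub 0)).toEquiv, card_center] at this
    rw [← hZ0]
    omega
  have hcK : Nat.card K = 9797760 := by
    have := (Subgroup.center K).card_eq_card_quotient_mul_card_subgroup
    rw [hZ, Nat.card_congr (φ.trans φ0.symm).toEquiv, hcQ] at this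
    exact this
  let mk0 := QuotientGroup.mk' Z0
  let pull : Subgroup (SU6 F) → Subgroup K := fun X => ((X.subgroupOf (sub 0)).map mk0).comap ψ
  have hpull : ∀ X : Subgroup (SU6 F), Subgroup.center (SU6 F) ≤ X → X ≤ sub 0 →
      Nat.card (pull X) = Nat.card X := by
    intro X hcX hX
    have h1 := (pull X).card_mul_index
    rw [Subgroup.index_comap_of_surjective _ hψs, hcK] at h1
    have h2 := (X.subgroupOf (sub (F := F) 0)).card_mul_index
    have hker : mk0.ker ≤ X.subgroupOf (sub 0) := by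
      rw [QuotientGroup.ker_mk', ← hZ0]
      exact fun x hx => hcX hx
    rw [Nat.card_congr (Subgroup.subgroupOfEquivOfLe hX).toEquiv, card_sub,
      ← Subgroup.index_map_eq (X.subgroupOf (sub 0)) (QuotientGroup.mk'_surjective _) hker] at h2
    have hpos : 0 < (Subgroup.map mk0 (X.subgroupOf (sub 0))).index := Nat.pos_of_ne_zero Subgroup.index_ne_zero_of_finite
    exact Nat.eq_of_mul_eq_mul_right hpos (h1.trans h2.symm)
  have hcd : Subgroup.center (SU6 F) ≤ diagG := center_le_diagG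
  have hdsub : diagG (F := F) ≤ sub 0 := diagG_le_monoE.trans (monoE_le_sub 0)
  set E := pull diagG with hEdef
  set N := pull monoE with hNdef
  have hEc : Nat.card E = 243 := by rw [hEdef, hpull _ hcd hdsub, card_diagG]
  have hNc : Nat.card N = 87480 := by
    rw [hNdef, hpull _ (hcd.trans diagG_le_monoE) (monoE_le_sub 0), card_monoE]
  have hZE : Subgroup.center K ≤ E := by
    rw [← hψk]
    intro x hx
    rw [hEdef]
    refine Subgroup.mem_comap.2 ?_
    rw [MonoidHom.mem_ker.1 hx]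
    exact one_mem _
  have mem_pull : ∀ (X : Subgroup (SU6 F)) (x : K), x ∈ pull X ↔ ∃ y : sub (F := F) 0, y.1 ∈ X ∧ mk0 y = ψ x := by
    intro X x
    simp only [pull]
    rw [Subgroup.mem_comap, Subgroup.mem_map]
    simp only [Subgroup.mem_subgroupOf]
  have hnorm : ∀ n ∈ N, ∀ x ∈ E, n * x * n⁻¹ ∈ E := by
    intro n hn x hx
    obtain ⟨a, ha, ea⟩ := (mem_pull _ _).1 hn
    obtain ⟨b, hb, eb⟩ := (mem_pull _ _).1 hx
    refine (mem_pull _ _).2 ⟨a * b * a⁻¹, ?_, by rw [map_mul, map_mul, map_inv, map_mul, map_mul, map_inv, ea, eb]⟩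
    obtain ⟨hs, hd⟩ := mem_diagG.1 hb
    have hn' : (diagS (F := F)).Normal := MonoidHom.normal_ker _
    exact mem_diagG.2 ⟨_, hn'.conj_mem _ hd ⟨a.1, monoE_le_stab ha⟩⟩
  have hirr : ∀ R : Subgroup K, Subgroup.center K ≤ R → R ≤ E → (∀ n ∈ N, ∀ x ∈ R, n * x * n⁻¹ ∈ R) →
      R = Subgroup.center K ∨ R = E := by
    intro R hcR hRE hRn
    let R0 : Subgroup (SU6 F) := ((R.map ψ).comap mk0).map (sub 0).subtype
    have hmem : ∀ g : SU6 F, g ∈ R0 ↔ ∃ y : sub (F := F) 0, y.1 = g ∧ ∃ x ∈ R, ψ x = mk0 y := by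
      intro g
      simp only [R0, Subgroup.mem_map, Subgroup.mem_comap, Subgroup.coe_subtype]
      exact ⟨fun ⟨y, hy, e⟩ => ⟨y, e, hy⟩, fun ⟨y, e, hy⟩ => ⟨y, hy, e⟩⟩
    have h1 : Subgroup.center (SU6 F) ≤ R0 := fun g hg =>
      (hmem g).2 ⟨⟨g, center_le_sub 0 hg⟩, rfl, 1, one_mem _, by
        rw [map_one]; exact ((QuotientGroup.eq_one_iff _).2 (by rw [← hZ0]; exact hg)).symm⟩
    have h2 : R0 ≤ diagG := by
      intro g hg
      obtain ⟨y, rfl, x, hx, e⟩ := (hmem g).1 hg
      obtain ⟨b, hb, eb⟩ := (mem_pull _ _).1 (hRE hx)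
      have : y⁻¹ * b ∈ Z0 := QuotientGroup.eq.1 (e.symm.trans eb.symm)
      rw [← hZ0] at this
      have h3 : y.1⁻¹ * b.1 ∈ diagG (F := F) := hcd this
      have := mul_mem hb (inv_mem h3)
      simpa using this
    have h3 : ∀ n ∈ monoE, ∀ g ∈ R0, n * g * n⁻¹ ∈ R0 := by
      intro n hn g hg
      obtain ⟨y, rfl, x, hx, e⟩ := (hmem g).1 hg
      obtain ⟨w, hw⟩ := hψs (mk0 ⟨n, monoE_le_sub 0 hn⟩)
      have hwN : w ∈ N := (mem_pull _ _).2 ⟨_, hn, hw.symm⟩
      exact (hmem _).2 ⟨⟨n, monoE_le_sub 0 hn⟩ * y * ⟨n, monoE_le_sub 0 hn⟩⁻¹, rfl, w * x * w⁻¹, hRn w hwN x hx, by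
        rw [map_mul, map_mul, map_inv, map_mul, map_mul, map_inv, hw, e]⟩
    rcases diag_irreducible R0 h1 h2 h3 with h | h
    · left
      refine le_antisymm (fun x hx => ?_) hcR
      rw [← hψk, MonoidHom.mem_ker]
      obtain ⟨y, hy⟩ := QuotientGroup.mk'_surjective Z0 (ψ x)
      have : y.1 ∈ R0 := (hmem _).2 ⟨y, rfl, x, hx, hy.symm⟩
      rw [h] at this
      rw [← hy]
      exact (QuotientGroup.eq_one_iff _).2 (by rw [← hZ0]; exact this)
    · right
      refine le_antisymm hRE fun x hx => ?_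
      obtain ⟨b, hb, eb⟩ := (mem_pull _ _).1 hx
      have : b.1 ∈ R0 := by rw [h]; exact hb
      obtain ⟨y, hy, x', hx', e⟩ := (hmem _).1 this
      rw [show y = b from Subtype.ext hy] at e
      have hk : x'⁻¹ * x ∈ ψ.ker := by
        rw [MonoidHom.mem_ker, map_mul, map_inv, e, ← eb]
        exact inv_mul_cancel _
      rw [hψk] at hk
      simpa using mul_mem hx' (hcR hk)
  have hcm : ∀ x ∈ E, ∀ y ∈ E, x * y * x⁻¹ * y⁻¹ ∈ Subgroup.center K := by
    intro x hx y hy
    obtain ⟨a, ha, ea⟩ := (mem_pull _ _).1 hx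
    obtain ⟨b, hb, eb⟩ := (mem_pull _ _).1 hy
    obtain ⟨has, had⟩ := mem_diagG.1 ha
    obtain ⟨hbs, hbd⟩ := mem_diagG.1 hb
    have hab : a * b = b * a := Subtype.ext (diag_commute had hbd)
    rw [← hψk, MonoidHom.mem_ker, map_mul, map_mul, map_mul, map_inv, map_inv, ← ea, ← eb, ← map_mul, hab, map_mul]
    group
  have hEcomm : ∀ x ∈ E, ∀ y ∈ E, x * y = y * x := by
    have hRle : Subgroup.center K ≤ E ⊓ Subgroup.centralizer (E : Set K) :=
      le_inf hZE fun z hz => Subgroup.mem_centralizer_iff.2 fun y _ => Subgroup.mem_center_iff.1 hz y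
    have hRn : ∀ n ∈ N, ∀ x ∈ E ⊓ Subgroup.centralizer (E : Set K),
        n * x * n⁻¹ ∈ E ⊓ Subgroup.centralizer (E : Set K) := by
      intro n hn x hx
      obtain ⟨h1, h2⟩ := Subgroup.mem_inf.1 hx
      refine Subgroup.mem_inf.2 ⟨hnorm n hn x h1, Subgroup.mem_centralizer_iff.2 fun y hy => ?_⟩
      have hy' : n⁻¹ * y * n ∈ E := by simpa using hnorm n⁻¹ (inv_mem hn) y hy
      have := Subgroup.mem_centralizer_iff.1 h2 _ hy'
      calc y * (n * x * n⁻¹) = n * (n⁻¹ * y * n * x) * n⁻¹ := by group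
        _ = n * (x * (n⁻¹ * y * n)) * n⁻¹ := by rw [this]
        _ = n * x * n⁻¹ * y := by group
    rcases hirr _ hRle inf_le_left hRn with h | h
    · exact absurd (commutative_of_irreducible hZ E hEc hZE hcm fun u hu huc => by
        rw [← h]
        exact Subgroup.mem_inf.2 ⟨hu, Subgroup.mem_centralizer_iff.2 huc⟩) id
    · intro x hx y hy
      have : y ∈ E ⊓ Subgroup.centralizer (E : Set K) := by rw [h]; exact hy
      exact Subgroup.mem_centralizer_iff.1 this.2 x hx
  let E' := E.map K.subtype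
  have hE'c : Nat.card E' = 243 := by rw [Subgroup.card_map_of_injective (Subgroup.subtype_injective _), hEc]
  obtain ⟨g, hg⟩ := exists_conj_diagG E' hE'c (by
    intro x hx y hy
    obtain ⟨a, ha, rfl⟩ := Subgroup.mem_map.1 hx
    obtain ⟨b, hb, rfl⟩ := Subgroup.mem_map.1 hy
    rw [← map_mul, ← map_mul, hEcomm a ha b hb])
  let N' := (N.map K.subtype).map (MulAut.conj g).toMonoidHom
  have hN' : N' = monoE := by
    refine eq_monoE_of_normalises N' ?_ ?_
    · rw [Subgroup.card_map_of_injective (MulEquiv.injective _),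
        Subgroup.card_map_of_injective (Subgroup.subtype_injective _), hNc]
    · intro a ha d hd
      obtain ⟨a1, ha1, rfl⟩ := Subgroup.mem_map.1 ha
      obtain ⟨n, hn, rfl⟩ := Subgroup.mem_map.1 ha1
      rw [← hg] at hd ⊢
      obtain ⟨d1, hd1, rfl⟩ := Subgroup.mem_map.1 hd
      obtain ⟨x, hx, rfl⟩ := Subgroup.mem_map.1 hd1
      refine Subgroup.mem_map.2 ⟨_, Subgroup.mem_map_of_mem _ (hnorm n⁻¹ (inv_mem hn) x hx), ?_⟩
      simp only [map_mul, map_inv, inv_inv]
  refine ⟨g, eq_sub_of_monoE_le ?_ ?_⟩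
  · rw [← hN']
    exact Subgroup.map_mono (Subgroup.map_subtype_le N)
  · rw [Subgroup.card_map_of_injective (MulEquiv.injective _), hcK]

end Cfsg.Agent.H8.U62
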