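import Cfsg.Agent.H8.U62.Real

/-!
# The monomial subgroup, its index two subgroup and its diagonal part
-/

set_option autoImplicit false
set_option linter.unusedSectionVars false
set_option maxRecDepth 20000
set_option maxHeartbeats 1000000

namespace Cfsg.Agent.H8.U62

open Matrix Setup Equiv

variable {F : Type} [Setup F]

theorem exists_perm_point {g : SU6 F} (hg : g ∈ stab) (j : Fin 6) : ∃ k, act g (p0 j) = p0 k := by
  have h1 : act g (p0 j) ∈ fr g := Finset.mem_image.2 ⟨j, Finset.mem_univ _, rfl⟩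
  rw [show fr g = fr (1 : SU6 F) from hg] at h1
  obtain ⟨k, -, hk⟩ := Finset.mem_image.1 h1
  exact ⟨k, by rw [← hk, act_one]⟩

/-- The permutation of the coordinates induced by a monomial element. -/
noncomputable def permFun (g : stab (F := F)) (j : Fin 6) : Fin 6 := (exists_perm_point g.2 j).choose

theorem permFun_spec (g : stab (F := F)) (j : Fin 6) : act g.1 (p0 j) = p0 (permFun g j) :=
  (exists_perm_point g.2 j).choose_spec

theorem permFun_mul (g h : stab (F := F)) (j : Fin 6) : permFun (g * h) j = permFun g (permFun h j) :=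
  p0_injective (by rw [← permFun_spec, ← permFun_spec, Subgroup.coe_mul, act_mul, permFun_spec])

theorem permFun_one (j : Fin 6) : permFun (1 : stab (F := F)) j = j :=
  p0_injective (by rw [← permFun_spec, Subgroup.coe_one, act_one])

/-- The homomorphism to the permutations of the coordinates. -/
noncomputable def perm : stab (F := F) →* Perm (Fin 6) where
  toFun g :=
    { toFun := permFun g
      invFun := permFun g⁻¹
      left_inv := fun j => by rw [← permFun_mul, inv_mul_cancel, permFun_one]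
      right_inv := fun j => by rw [← permFun_mul, mul_inv_cancel, permFun_one] }
  map_one' := Equiv.ext permFun_one
  map_mul' g h := Equiv.ext (permFun_mul g h)

/-- The permutation read off a code. -/
def permOK (A : ℕ) (σ : Perm (Fin 6)) : Bool :=
  decide (∀ j : Fin 6, ptC (colC A j.1) = ptC (1 <<< (2 * (σ j).1)))

theorem perm_of_code {g : SU6 F} {A : ℕ} (hA : mat g = matF om A) {σ : Perm (Fin 6)}
    (h : permOK A σ = true) : ∃ hg : g ∈ stab, perm ⟨g, hg⟩ = σ := by
  simp only [permOK, decide_eq_true_eq] at h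
  have hact : ∀ j, act g (p0 j) = p0 (σ j) := fun j => Fin.ext (by rw [act_p0 g hA, h j, p0_val])
  have hg : g ∈ stab := by
    show fr g = fr 1
    ext i
    simp only [fr, Finset.mem_image, Finset.mem_univ, true_and, hact, act_one]
    exact ⟨fun ⟨j, hj⟩ => ⟨_, hj⟩, fun ⟨j, hj⟩ => ⟨σ.symm j, by rw [Equiv.apply_symm_apply, hj]⟩⟩
  refine ⟨hg, Equiv.ext fun j => p0_injective ?_⟩
  rw [show perm ⟨g, hg⟩ j = permFun ⟨g, hg⟩ j from rfl, ← permFun_spec, hact]

/-- The index two subgroup of the monomial group. -/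
noncomputable def monoE : Subgroup (SU6 F) :=
  Subgroup.closure (Set.range fun g : Fin 3 => (wordG (genW.getD g.1 []) : SU6 F))

/-- The element swapping the first two coordinates. -/
noncomputable def tau : SU6 F := wordG tauW

theorem mat_tau : mat (tau : SU6 F) = matF om tauC := mat_wordG _

/-- The permutations of the three generators. -/
def genPerm (g : Fin 3) : Perm (Fin 6) :=
  if g = 0 then 1 else if g = 1 then swap 0 1 * swap 1 2
  else swap 1 2 * swap 2 3 * swap 3 4 * swap 4 5

theorem gen_perm (g : Fin 3) : ∃ hg : (wordG (genW.getD g.1 []) : SU6 F) ∈ stab,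
    perm ⟨_, hg⟩ = genPerm g := by
  have h : ∀ g : Fin 3, permOK (wordC (genW.getD g.1 [])) (genPerm g) = true := by decide +kernel
  exact perm_of_code (mat_wordG _) (h g)

theorem tau_perm : ∃ hg : (tau : SU6 F) ∈ stab, perm ⟨_, hg⟩ = swap 0 1 :=
  perm_of_code mat_tau (by decide +kernel)

theorem monoE_le_stab : monoE (F := F) ≤ stab := by
  rw [monoE, Subgroup.closure_le]
  rintro _ ⟨g, rfl⟩
  exact (gen_perm g).1

theorem sign_perm_monoE {g : stab (F := F)} (hg : g.1 ∈ monoE) : Perm.sign (perm g) = 1 := by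
  have h : monoE ≤ ((Perm.sign.comp perm).ker.map (stab (F := F)).subtype) := by
    rw [monoE, Subgroup.closure_le]
    rintro _ ⟨g, rfl⟩
    obtain ⟨hg, e⟩ := gen_perm (F := F) g
    refine ⟨⟨_, hg⟩, ?_, rfl⟩
    show Perm.sign (perm ⟨_, hg⟩) = 1
    rw [e]
    clear e hg
    revert g; decide +kernel
  obtain ⟨k, hk, e⟩ := h hg
  rw [show g = k from Subtype.ext e.symm]
  exact hk

theorem genC_getD (g : Fin 3) : genC.getD g.1 oneC = wordC (genW.getD g.1 []) := by
  revert g; decide +kernel

theorem real_genC : ∀ A ∈ genC, Real (monoE (F := F)) A := by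
  intro A hA
  obtain ⟨w, hw, rfl⟩ := List.mem_map.1 hA
  obtain ⟨i, hi, rfl⟩ := List.getElem_of_mem hw
  have hl : genW.length = 3 := by decide +kernel
  refine ⟨_, Subgroup.subset_closure ⟨⟨i, by omega⟩, rfl⟩, ?_⟩
  rw [mat_wordG, List.getD_eq_getElem?_getD, List.getElem?_eq_getElem hi, Option.getD_some]

theorem mon_facts :
    (bld genC pTree [oneC] = pTab ∧ pTab.length = 360 ∧ bld dGenC dTree [oneC] = dTab ∧ dTab.length = 243) ∧
    ((∀ e < 243, dExp.getD (dPos.getD e 243) 243 = e ∧ dPos.getD e 243 < 243) ∧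
      (∀ a < 243, dTab.getD a 0 = diagE (dExp.getD a 243))) ∧
    (∀ g < 3, ∀ b < 360, ∃ a' < 243, ∃ b' < 360,
      mmC (genC.getD g oneC) (pTab.getD b 0) = monC a' b') ∧
    (∀ g < 3, ∃ a' < 243, ∃ b' < 360, mmC tauC (mmC (genC.getD g oneC) tauC) = monC a' b') ∧
    mmC tauC tauC = oneC := by
  have h := mon_ok
  simp only [monOK, isPerm243, Bool.and_eq_true, List.all_eq_true, List.mem_range] at h
  obtain ⟨⟨⟨⟨⟨⟨⟨⟨h1, h2⟩, h3⟩, h4⟩, h5⟩, h6⟩, h7⟩, h8⟩, h9⟩ := h
  exact ⟨⟨beqList_sound h1, Nat.eq_of_beq_eq_true h2, beqList_sound h3, Nat.eq_of_beq_eq_true h4⟩,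
    ⟨fun e he => ⟨Nat.eq_of_beq_eq_true (h5.2 e he).1, Nat.le_of_ble_eq_true (h5.2 e he).2⟩,
      fun a ha => Nat.eq_of_beq_eq_true (h6 a ha)⟩,
    fun g hg b hb => ⟨_, Nat.le_of_ble_eq_true (h7 g hg b hb).1.1, _,
      Nat.le_of_ble_eq_true (h7 g hg b hb).1.2, Nat.eq_of_beq_eq_true (h7 g hg b hb).2⟩,
    fun g hg => ⟨_, Nat.le_of_ble_eq_true (h8 g hg).1.1, _, Nat.le_of_ble_eq_true (h8 g hg).1.2,
      Nat.eq_of_beq_eq_true (h8 g hg).2⟩,
    Nat.eq_of_beq_eq_true h9⟩

theorem real_pTab : ∀ A ∈ pTab, Real (monoE (F := F)) A := by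
  rw [← mon_facts.1.1]; exact real_bld_one real_genC _

theorem real_dTab : ∀ A ∈ dTab, Real (monoE (F := F)) A := by
  rw [← mon_facts.1.2.2.1]
  refine real_bld_one (fun A hA => ?_) _
  obtain ⟨q, -, rfl⟩ := List.mem_map.1 hA
  exact (Real.getD real_pTab _).mmC ((Real.getD real_genC _).mmC (Real.getD real_pTab _))

theorem real_monC (a b : ℕ) : Real (monoE (F := F)) (monC a b) :=
  (Real.getD real_dTab a).mmC (Real.getD real_pTab b)

/-- The exponent of a diagonal code. -/
def expD (e : ℕ) (j : ℕ) : ℕ :=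
  if j < 5 then e / 3 ^ j % 3
  else (3 - (e % 3 + e / 3 % 3 + e / 9 % 3 + e / 27 % 3 + e / 81 % 3) % 3) % 3

theorem diag_bits : ∀ e < 243, ∀ i j : Fin 6,
    (diagE e).testBit (12 * j.1 + 2 * i.1) = (decide (i = j) && !(expD e j.1 == 1)) ∧
    (diagE e).testBit (12 * j.1 + 2 * i.1 + 1) = (decide (i = j) && !(expD e j.1 == 0)) := by
  decide +kernel

theorem matF_diagE {e : ℕ} (he : e < 243) :
    matF (om : F) (diagE e) = Matrix.diagonal fun j : Fin 6 => om ^ expD e j.1 := by
  have hlt : ∀ j, expD e j < 3 := fun j => by unfold expD; split <;> omega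
  ext i j
  simp only [matF, Matrix.of_apply, diag_bits e he i j]
  by_cases h : i = j
  · subst h
    have := hlt i.1
    rw [Matrix.diagonal_apply_eq]
    rcases (show expD e i.1 = 0 ∨ expD e i.1 = 1 ∨ expD e i.1 = 2 by omega) with h | h | h
    · simp [h, fe, bF]
    · simp [h, fe, bF]
    · simp only [h, fe, bF, decide_true, Bool.true_and]
      simp [pow_two, hom, add_comm]
  · simp [h, fe, bF]

theorem om_pow_inj {a b : ℕ} (ha : a < 3) (hb : b < 3) (h : (om : F) ^ a = om ^ b) : a = b := by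
  have h0 := om_ne_zero (F := F)
  have h1 := om_ne_one (F := F)
  have h2 : (om : F) ^ 2 ≠ 1 := fun e => h0 (by
    rw [pow_two, hom] at e; linear_combination e)
  have h3 : (om : F) ^ 2 ≠ om := fun e => one_ne_zero (by
    rw [pow_two, hom] at e; linear_combination e : (1 : F) = 0)
  have h4 : (om : F) ^ 0 = 1 := pow_zero _
  have h5 : (om : F) ^ 1 = om := pow_one _
  interval_cases a <;> interval_cases b <;>
    first
      | rfl
      | (exfalso; simp only [h4, h5] at h; exact h1 h)
      | (exfalso; simp only [h4, h5] at h; exact h1 h.symm)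
      | (exfalso; simp only [h4, h5] at h; exact h2 h)
      | (exfalso; simp only [h4, h5] at h; exact h2 h.symm)
      | (exfalso; simp only [h4, h5] at h; exact h3 h)
      | (exfalso; simp only [h4, h5] at h; exact h3 h.symm)

/-- The diagonal elements. -/
noncomputable def diagS : Subgroup (stab (F := F)) := perm.ker

theorem eigen_of_act {g : SU6 F} {j k : Fin 6} (h : act g (p0 j) = p0 k) :
    ∃ c : F, c ≠ 0 ∧ mat g *ᵥ eF j = c • eF k := by
  rw [p0_eq (F := F), p0_eq (F := F), act_pt] at h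
  have e : ptF (mat g *ᵥ eF j) = ptF (eF k : Fin 6 → F) := congrArg Fin.val h
  obtain ⟨c, hc, hc'⟩ := (point_facts (unit_mulVec g (eF_unit j))).2.2
  obtain ⟨d, hd, hd'⟩ := (point_facts (eF_unit (F := F) k)).2.2
  rw [e, hd'] at hc'
  refine ⟨c⁻¹ * d, mul_ne_zero (inv_ne_zero hc) hd, ?_⟩
  rw [mul_smul, hc', inv_smul_smul₀ hc]

theorem exists_exp_of_mem_diagS {g : stab (F := F)} (hg : g ∈ diagS) :
    ∃ e < 243, mat g.1 = matF om (diagE e) := by
  have hg' : ∀ j, act g.1 (p0 j) = p0 j := fun j => by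
    rw [permFun_spec, show permFun g j = perm g j from rfl, show perm g = 1 from hg]; rfl
  choose c hc0 hc using fun j => eigen_of_act (hg' j)
  have hM : mat g.1 = Matrix.diagonal c := by
    ext i j
    have := congrFun (hc j) i
    rw [eF_eq_single, Matrix.mulVec_single_one] at this
    simp only [Matrix.col_apply, Pi.smul_apply, smul_eq_mul, Pi.single_apply] at this
    rw [this]
    by_cases h : i = j
    · subst h; simp
    · simp [h]
  have hdet : ∏ j, c j = 1 := by
    have := g.1.1.2
    rwa [show (g.1.1.1 : Matrix (Fin 6) (Fin 6) F) = Matrix.diagonal c from hM, Matrix.det_diagonal] at this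
  have hex : ∀ j, ∃ a : Fin 3, c j = om ^ a.1 := fun j => by
    rcases ne_zero_cases (hc0 j) with h | h | h
    · exact ⟨0, by simpa using h⟩
    · exact ⟨1, by simpa using h⟩
    · exact ⟨2, by rw [h]; simp [pow_two]⟩
  choose a ha using hex
  have h3 : ((om : F)) ^ 3 = 1 := by
    rw [show (om : F) ^ 3 = om * om * om by ring, cube_eq_one om_ne_zero]
  have hsum : (∑ j, (a j).1) % 3 = 0 := by
    simp only [ha, Finset.prod_pow_eq_pow_sum] at hdet
    rw [← Nat.mod_add_div (∑ j, (a j).1) 3, pow_add, pow_mul, h3, one_pow, mul_one, ← pow_zero (om : F)] at hdet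
    exact om_pow_inj (Nat.mod_lt _ (by norm_num)) (by norm_num) hdet
  rw [Fin.sum_univ_six] at hsum
  have b0 := (a 0).2
  have b1 := (a 1).2
  have b2 := (a 2).2
  have b3 := (a 3).2
  have b4 := (a 4).2
  have b5 := (a 5).2
  have digits : ∀ x0 x1 x2 x3 x4 : Fin 3, ∀ e : ℕ, e = x0.1 + 3 * x1.1 + 9 * x2.1 + 27 * x3.1 + 81 * x4.1 →
      e % 3 = x0.1 ∧ e / 3 % 3 = x1.1 ∧ e / 9 % 3 = x2.1 ∧ e / 27 % 3 = x3.1 ∧ e / 81 % 3 = x4.1 := by
    intro x0 x1 x2 x3 x4 e he
    subst he
    revert x0 x1 x2 x3 x4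
    decide +kernel
  obtain ⟨d0, d1, d2, d3, d4⟩ := digits (a 0) (a 1) (a 2) (a 3) (a 4) _ rfl
  refine ⟨(a 0).1 + 3 * (a 1).1 + 9 * (a 2).1 + 27 * (a 3).1 + 81 * (a 4).1, by omega, ?_⟩
  rw [hM, matF_diagE (by omega)]
  congr 1
  funext j
  rw [ha j]
  congr 1
  fin_cases j <;> simp [expD, Fin.reduceFinMk, d0, d1, d2, d3, d4] <;> omega

theorem exists_idx_of_mem_diagS {g : stab (F := F)} (hg : g ∈ diagS) :
    ∃ a < 243, mat g.1 = matF om (dTab.getD a 0) := by
  obtain ⟨e, he, h⟩ := exists_exp_of_mem_diagS hg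
  obtain ⟨h1, h2⟩ := mon_facts.2.1.1 e he
  exact ⟨_, h2, by rw [mon_facts.2.1.2 _ h2, h1, h]⟩

theorem diagS_le_monoE {g : stab (F := F)} (hg : g ∈ diagS) : g.1 ∈ monoE := by
  obtain ⟨a, ha, h⟩ := exists_idx_of_mem_diagS hg
  have hm : dTab.getD a 0 ∈ dTab := by
    rw [List.getD_eq_getElem?_getD, List.getElem?_eq_getElem (by rw [mon_facts.1.2.2.2]; exact ha)]
    exact List.getElem_mem _
  exact (real_dTab _ hm).mem h

theorem dExp_lt : ∀ a < 243, dExp.getD a 243 < 243 := by decide +kernel

theorem dTab_diag {a : ℕ} (ha : a < 243) {g : SU6 F} (hg : mat g = matF om (dTab.getD a 0)) :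
    ∃ h : g ∈ stab, (⟨g, h⟩ : stab (F := F)) ∈ diagS := by
  have hd : ∀ a < 243, permOK (dTab.getD a 0) 1 = true := by decide +kernel
  obtain ⟨h, e⟩ := perm_of_code hg (hd a ha)
  exact ⟨h, e⟩

theorem card_diagS : Nat.card (diagS (F := F)) = 243 := by
  classical
  have hex : ∀ e : Fin 243, ∃ g : diagS (F := F), mat g.1.1 = matF om (diagE e.1) := fun e => by
    obtain ⟨h1, h2⟩ := mon_facts.2.1.1 e.1 e.2
    have hm : dTab.getD (dPos.getD e.1 243) 0 ∈ dTab := by
      rw [List.getD_eq_getElem?_getD (l := dTab), List.getElem?_eq_getElem (by rw [mon_facts.1.2.2.2]; exact h2)]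
      exact List.getElem_mem _
    obtain ⟨g, -, hg⟩ := real_dTab (F := F) _ hm
    obtain ⟨hs, hd⟩ := dTab_diag h2 hg
    exact ⟨⟨⟨g, hs⟩, hd⟩, by rw [hg, mon_facts.2.1.2 _ h2, h1]⟩
  choose φ hφ using hex
  have hbij : Function.Bijective φ := by
    refine ⟨fun e e' h => ?_, fun g => ?_⟩
    · have h1 := (hφ e).symm.trans ((congrArg (fun g : diagS (F := F) => mat g.1.1) h).trans (hφ e'))
      rw [matF_diagE e.2, matF_diagE e'.2] at h1
      have h2 := fun j => congrFun (Matrix.diagonal_injective h1) j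
      have h3 : ∀ j : Fin 6, expD e.1 j.1 = expD e'.1 j.1 := fun j =>
        om_pow_inj (by unfold expD; split <;> omega) (by unfold expD; split <;> omega) (h2 j)
      have a0 := h3 0
      have a1 := h3 1
      have a2 := h3 2
      have a3 := h3 3
      have a4 := h3 4
      simp [expD] at a0 a1 a2 a3 a4
      exact Fin.ext (by have := e.2; have := e'.2; omega)
    · obtain ⟨e, he, h⟩ := exists_exp_of_mem_diagS g.2
      exact ⟨⟨e, he⟩, Subtype.ext (Subtype.ext (ext_mat ((hφ ⟨e, he⟩).trans h.symm)))⟩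
  rw [← Nat.card_congr (Equiv.ofBijective φ hbij), Nat.card_fin]

theorem tau_mul_self : (tau : SU6 F) * tau = 1 :=
  ext_mat (by rw [mat_mul, mat_tau, ← matF_mmC _ hom two, mon_facts.2.2.2.2, matF_oneC _ hom two, mat_one])

theorem tau_conj_monoE {g : SU6 F} (hg : g ∈ monoE) : tau * g * tau ∈ (monoE : Subgroup (SU6 F)) := by
  induction hg using Subgroup.closure_induction with
  | mem x hx =>
    obtain ⟨i, rfl⟩ := hx
    obtain ⟨a', -, b', -, h⟩ := mon_facts.2.2.2.1 i.1 i.2
    refine (real_monC a' b').mem ?_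
    rw [mat_mul, mat_mul, mat_tau, mat_wordG, ← h, genC_getD, matF_mmC _ hom two, matF_mmC _ hom two,
      Matrix.mul_assoc]
  | one => rw [mul_one, tau_mul_self]; exact one_mem _
  | mul x y _ _ hx hy =>
    have e : tau * (x * y) * tau = (tau * x * tau) * (tau * y * tau) := by
      calc tau * (x * y) * tau = tau * x * (tau * tau) * y * tau := by rw [tau_mul_self]; group
        _ = _ := by group
    rw [e]; exact mul_mem hx hy
  | inv x _ hx =>
    have e : tau * x⁻¹ * tau = (tau * x * tau)⁻¹ := by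
      have ht : (tau : SU6 F)⁻¹ = tau := inv_eq_of_mul_eq_one_right tau_mul_self
      rw [_root_.mul_inv_rev, _root_.mul_inv_rev, ht, mul_assoc]
    rw [e]; exact inv_mem hx

/-- The monomial group is the union of two cosets. -/
theorem stab_cases {g : SU6 F} (hg : g ∈ stab) : g ∈ monoE ∨ tau * g ∈ monoE := by
  let S : Subgroup (stab (F := F)) :=
    { carrier := {x | x.1 ∈ monoE ∨ tau * x.1 ∈ monoE}
      one_mem' := Or.inl (one_mem _)
      mul_mem' := fun {x y} hx hy => by
        rcases hx with hx | hx <;> rcases hy with hy | hy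
        · exact Or.inl (mul_mem hx hy)
        · refine Or.inr ?_
          have e : tau * (x.1 * y.1) = (tau * x.1 * tau) * (tau * y.1) := by
            calc tau * (x.1 * y.1) = tau * x.1 * (tau * tau) * y.1 := by rw [tau_mul_self]; group
              _ = _ := by group
          show tau * (x.1 * y.1) ∈ monoE
          rw [e]; exact mul_mem (tau_conj_monoE hx) hy
        · refine Or.inr ?_
          show tau * (x.1 * y.1) ∈ monoE
          rw [← mul_assoc]; exact mul_mem hx hy
        · refine Or.inl ?_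
          have e : x.1 * y.1 = (tau * (tau * x.1) * tau) * (tau * y.1) := by
            calc x.1 * y.1 = (tau * tau) * x.1 * (tau * tau) * y.1 := by rw [tau_mul_self]; group
              _ = _ := by group
          show x.1 * y.1 ∈ monoE
          rw [e]; exact mul_mem (tau_conj_monoE hx) hy
      inv_mem' := fun {x} hx => by
        rcases hx with hx | hx
        · exact Or.inl (inv_mem hx)
        · refine Or.inr ?_
          have e : tau * x.1⁻¹ = tau * (tau * x.1)⁻¹ * tau := by
            rw [_root_.mul_inv_rev, inv_eq_of_mul_eq_one_right tau_mul_self, mul_assoc, mul_assoc, tau_mul_self, mul_one]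
          show tau * x.1⁻¹ ∈ monoE
          rw [e]; exact tau_conj_monoE (inv_mem hx) }
  have hsw : ∀ i j : Fin 6, i < j → swap i j ∈ S.map perm := by
    intro i j hij
    obtain ⟨hs, e⟩ := perm_of_code (F := F) (mat_atomG ((1 <<< (2 * i.1)) + (1 <<< (2 * j.1))))
      (σ := swap i j) (by revert hij; revert i j; decide +kernel)
    refine ⟨⟨_, hs⟩, ?_, e⟩
    have hm : ∀ i j : Fin 6, i < j → ∃ n : Fin 15, swapsOK.swapV.getD n.1 0 = (1 <<< (2 * i.1)) + (1 <<< (2 * j.1)) := by
      decide +kernel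
    obtain ⟨n, hn⟩ := hm i j hij
    have h := swaps_ok
    simp only [swapsOK, Bool.and_eq_true, List.all_eq_true, List.mem_range] at h
    have hn' := Nat.eq_of_beq_eq_true (h n.1 n.2).2
    rw [hn] at hn'
    refine Or.inr ?_
    show tau * atomG ((1 <<< (2 * i.1)) + (1 <<< (2 * j.1))) ∈ monoE
    generalize hA : (atomG ((1 <<< (2 * i.1)) + (1 <<< (2 * j.1))) : SU6 F) = A
    have hAt : A * tau ∈ monoE := (real_monC _ _).mem (by
      rw [← hA, mat_mul, mat_atomG, mat_tau, ← matF_mmC _ hom two, hn'])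
    have e : tau * A = tau * (A * tau) * tau := by rw [mul_assoc, mul_assoc, tau_mul_self, mul_one]
    rw [e]
    exact tau_conj_monoE hAt
  have htop : S.map perm = ⊤ := by
    rw [eq_top_iff, ← Perm.closure_isSwap, Subgroup.closure_le]
    rintro σ ⟨x, y, hxy, rfl⟩
    rcases lt_or_gt_of_ne hxy with h | h
    · exact hsw x y h
    · rw [Equiv.swap_comm]; exact hsw y x h
  have hin : ∀ x, perm (F := F) x ∈ S.map perm := fun x => by rw [htop]; exact Subgroup.mem_top _
  obtain ⟨s, hs, e⟩ := Subgroup.mem_map.1 (hin ⟨g, hg⟩)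
  have hd : s⁻¹ * ⟨g, hg⟩ ∈ S := by
    refine Or.inl (diagS_le_monoE ?_)
    refine MonoidHom.mem_ker.2 ?_
    rw [map_mul, map_inv, e, inv_mul_cancel]
  have := S.mul_mem hs hd
  rwa [mul_inv_cancel_left] at this

theorem perm_surjective : Function.Surjective (perm (F := F)) := by
  rw [← MonoidHom.range_eq_top, eq_top_iff, ← Perm.closure_isSwap, Subgroup.closure_le]
  rintro σ ⟨x, y, hxy, rfl⟩
  obtain ⟨hs, e⟩ := perm_of_code (F := F) (mat_atomG ((1 <<< (2 * x.1)) + (1 <<< (2 * y.1))))
    (σ := swap x y) (by revert hxy; revert x y; decide +kernel)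
  exact ⟨⟨_, hs⟩, e⟩

theorem card_stab : Nat.card (stab (F := F)) = 174960 := by
  rw [← (perm (F := F)).ker.card_mul_index, Subgroup.index_ker,
    MonoidHom.range_eq_top.2 perm_surjective, Subgroup.card_top, Nat.card_perm]
  show Nat.card (diagS (F := F)) * _ = _
  rw [card_diagS, Nat.card_fin]
  rfl

theorem monoE_eq : (monoE (F := F)).subgroupOf stab = (Perm.sign.comp perm).ker := by
  refine le_antisymm (fun g hg => sign_perm_monoE hg) fun g hg => ?_
  rcases stab_cases g.2 with h | h
  · exact h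
  · exfalso
    obtain ⟨ht, e⟩ := tau_perm (F := F)
    have := sign_perm_monoE (g := ⟨tau, ht⟩ * g) h
    rw [map_mul, map_mul, e, show Perm.sign (perm g) = 1 from hg, Perm.sign_swap (by decide), mul_one] at this
    exact absurd this (by decide)

theorem tau_not_mem : (tau : SU6 F) ∉ monoE := fun h => by
  obtain ⟨ht, e⟩ := tau_perm (F := F)
  have := sign_perm_monoE (g := ⟨tau, ht⟩) h
  rw [e, Perm.sign_swap (by decide)] at this
  exact absurd this (by decide)

theorem card_monoE : Nat.card (monoE (F := F)) = 87480 := by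
  rw [← Nat.card_congr (Subgroup.subgroupOfEquivOfLe monoE_le_stab).toEquiv, monoE_eq]
  have h := (Perm.sign.comp (perm (F := F))).ker.card_mul_index
  have hs : Function.Surjective (Perm.sign.comp (perm (F := F))) := by
    intro u
    obtain ⟨ht, e⟩ := tau_perm (F := F)
    rcases Int.units_eq_one_or u with rfl | rfl
    · exact ⟨1, map_one _⟩
    · refine ⟨⟨tau, ht⟩, ?_⟩
      rw [MonoidHom.comp_apply, e, Perm.sign_swap (by decide)]
  have hu : Nat.card ℤˣ = 2 := by rw [Nat.card_eq_fintype_card, Fintype.card_units_int]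
  rw [card_stab, Subgroup.index_ker, MonoidHom.range_eq_top.2 hs, Subgroup.card_top, hu] at h
  omega

/-- Every element of the index two subgroup is a diagonal times a pure permutation. -/
theorem exists_monC {g : SU6 F} (hg : g ∈ monoE) :
    ∃ a < 243, ∃ b < 360, mat g = matF om (monC a b) := by
  have hclos : Submonoid.closure (Set.range fun g : Fin 3 => (wordG (genW.getD g.1 []) : SU6 F)) =
      (monoE (F := F)).toSubmonoid := Subgroup.closure_toSubmonoid_of_finite.symm
  have hg' : g ∈ (monoE (F := F)).toSubmonoid := hg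
  rw [← hclos] at hg'
  have hl := mon_facts.1
  have hz : ∃ a < 243, dTab.getD a 0 = oneC := ⟨0, by norm_num, by decide +kernel⟩
  induction hg' using Submonoid.closure_induction_left with
  | one =>
    obtain ⟨a, ha, e⟩ := hz
    refine ⟨a, ha, 0, by norm_num, ?_⟩
    have e' : monC a 0 = oneC := by
      have : mmC oneC (pTab.getD 0 oneC) = oneC := by decide +kernel
      rw [monC, List.getD_eq_getElem?_getD, List.getElem?_eq_getElem (by omega)]
      rw [List.getD_eq_getElem?_getD, List.getElem?_eq_getElem (by omega)] at e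
      rw [Option.getD_some] at e ⊢
      rw [e, this]
    rw [e', matF_oneC _ hom two, mat_one]
  | mul_left x hx y hy ih =>
    obtain ⟨i, rfl⟩ := hx
    obtain ⟨a, ha, b, hb, e⟩ := ih (by
      rw [hclos] at hy; exact hy)
    obtain ⟨a', ha', b', hb', h⟩ := mon_facts.2.2.1 i.1 i.2 b hb
    have hget : ∀ {l : List ℕ} {n : ℕ}, n < l.length → l.getD n oneC = l.getD n 0 := fun hn => by
      rw [List.getD_eq_getElem?_getD, List.getD_eq_getElem?_getD, List.getElem?_eq_getElem hn]; rfl
    obtain ⟨d, -, hd⟩ := real_dTab (F := F) _ (by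
      rw [List.getD_eq_getElem?_getD, List.getElem?_eq_getElem (by omega)]; exact List.getElem_mem _ :
        dTab.getD a 0 ∈ dTab)
    obtain ⟨d', -, hd'⟩ := real_dTab (F := F) _ (by
      rw [List.getD_eq_getElem?_getD, List.getElem?_eq_getElem (by omega)]; exact List.getElem_mem _ :
        dTab.getD a' 0 ∈ dTab)
    obtain ⟨p, -, hp⟩ := real_pTab (F := F) _ (by
      rw [List.getD_eq_getElem?_getD, List.getElem?_eq_getElem (by omega)]; exact List.getElem_mem _ :
        pTab.getD b 0 ∈ pTab)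
    obtain ⟨hds, hdd⟩ := dTab_diag ha hd
    obtain ⟨hds', hdd'⟩ := dTab_diag ha' hd'
    let w : stab (F := F) := ⟨wordG (genW.getD i.1 []), (gen_perm i).1⟩
    have hn : (diagS (F := F)).Normal := MonoidHom.normal_ker _
    obtain ⟨c, hc, hce⟩ := exists_idx_of_mem_diagS (mul_mem (hn.conj_mem _ hdd w) hdd')
    refine ⟨c, hc, b', hb', ?_⟩
    have hgp : matF (om : F) (monC a' b') = mat (w.1 * p) := by
      rw [← h, matF_mmC _ hom two, genC_getD, ← mat_wordG, ← hp, mat_mul]
    have hy' : y = d * p := ext_mat (by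
      rw [e, monC, matF_mmC _ hom two, mat_mul, hd, hp, hget (by omega), hget (by omega)])
    have hq : matF (om : F) (pTab.getD b' oneC) = mat (d'⁻¹ * (w.1 * p)) := by
      have hx : matF (om : F) (monC a' b') = mat d' * matF om (pTab.getD b' oneC) := by
        rw [monC, matF_mmC _ hom two, hget (show a' < dTab.length by omega), hd']
      calc matF (om : F) (pTab.getD b' oneC)
          = mat (d'⁻¹ * d') * matF om (pTab.getD b' oneC) := by rw [inv_mul_cancel, mat_one, one_mul]
        _ = mat d'⁻¹ * matF om (monC a' b') := by rw [hx, mat_mul, Matrix.mul_assoc]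
        _ = _ := by rw [hgp, mat_mul, mat_mul, mat_mul]
    rw [monC, matF_mmC _ hom two, hget (show c < dTab.length by omega), ← hce, hq, ← mat_mul, hy']
    refine congrArg mat ?_
    show w.1 * (d * p) = w.1 * d * w.1⁻¹ * d' * (d'⁻¹ * (w.1 * p))
    group

end Cfsg.Agent.H8.U62
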