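import Cfsg.Agent.H8.U62.Group
import Cfsg.Agent.H8.U62.Check

/-!
# The action on points and frames
-/

set_option autoImplicit false
set_option linter.unusedSectionVars false

namespace Cfsg.Agent.H8.U62

open Matrix Setup

variable {F : Type} [Setup F]

/-- A code of a vector. -/
noncomputable def codeF (x : Fin 6 → F) : ℕ := (exists_vecF x).choose

theorem codeF_lt (x : Fin 6 → F) : codeF x < 4096 := (exists_vecF x).choose_spec.1

theorem vecF_codeF (x : Fin 6 → F) : vecF om (codeF x) = x := (exists_vecF x).choose_spec.2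

/-- The point of a vector. -/
noncomputable def ptF (x : Fin 6 → F) : ℕ := ptC (codeF x)

theorem ptF_vecF (v : ℕ) : ptF (vecF (om : F) v) = ptC v := by
  have h := low_eq_of_vecF_eq (vecF_codeF (vecF (om : F) v))
  rw [ptF, ptC, ptC, h]

theorem unitC_iff (v : ℕ) : hermForm 6 F 2 (vecF (om : F) v) (vecF om v) = 1 ↔ unitC v = true := by
  have h1 : (1 : F) = fe om true false := by simp [fe, bF]
  rw [hermForm_vecF _ hom two, unitC]
  constructor
  · intro h
    rw [h1] at h
    obtain ⟨e1, e2⟩ := fe_inj h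
    simp [e1, e2]
  · intro h
    simp only [Bool.and_eq_true, Bool.not_eq_true'] at h
    rw [h.1, h.2, ← h1]

theorem ne_zero_cases {c : F} (h : c ≠ 0) : c = 1 ∨ c = om ∨ c = om * om := by
  obtain ⟨a, b, rfl⟩ := exists_fe c
  cases a <;> cases b <;> simp [fe, bF, hom, add_comm] at h ⊢

theorem point_facts {x : Fin 6 → F} (h : hermForm 6 F 2 x x = 1) :
    ptF x < 672 ∧ ptF ((om : F) • x) = ptF x ∧
      ∃ c : F, c ≠ 0 ∧ vecF om (repC (ptF x)) = c • x := by
  have hu : unitC (codeF x) = true := (unitC_iff (F := F) _).1 (by rwa [vecF_codeF])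
  have hp := points_ok
  simp only [pointsOK, Bool.and_eq_true, List.all_eq_true, List.mem_range] at hp
  have := hp.1 (codeF x) (codeF_lt x)
  simp only [hu, cond_true, force_eq, Bool.and_eq_true, Bool.or_eq_true] at this
  obtain ⟨⟨hlt, hsw⟩, hr⟩ := this
  refine ⟨Nat.le_of_ble_eq_true hlt, ?_, ?_⟩
  · have e : vecF (om : F) (sW (codeF x)) = (om : F) • x := by rw [vecF_sW _ hom two, vecF_codeF]
    rw [← e, ptF_vecF]
    exact Nat.eq_of_beq_eq_true hsw
  · have h0 := om_ne_zero (F := F)
    rcases hr with (hr | hr) | hr <;> rw [ptF, Nat.eq_of_beq_eq_true hr]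
    · exact ⟨1, one_ne_zero, by rw [vecF_codeF, one_smul]⟩
    · exact ⟨om, h0, by rw [vecF_sW _ hom two, vecF_codeF]⟩
    · exact ⟨om * om, mul_ne_zero h0 h0, by rw [vecF_sW _ hom two, vecF_sW _ hom two, vecF_codeF, mul_smul]⟩

theorem herm_smul_smul (c : F) (x y : Fin 6 → F) :
    hermForm 6 F 2 (c • x) (c • y) = (c * c * c) * hermForm 6 F 2 x y := by
  simp only [hermForm, Pi.smul_apply, smul_eq_mul, Finset.mul_sum]
  exact Finset.sum_congr rfl fun i _ => by ring

theorem cube_eq_one {c : F} (h : c ≠ 0) : c * c * c = 1 := by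
  have h1 := hom (F := F)
  have h2 := two (F := F)
  rcases ne_zero_cases h with rfl | rfl | rfl
  · ring
  · linear_combination (om + 1) * h1 + om * h2
  · linear_combination (om * om * om + 1) * ((om + 1) * h1 + om * h2)

theorem ptF_smul {x : Fin 6 → F} (h : hermForm 6 F 2 x x = 1) {c : F} (hc : c ≠ 0) :
    ptF (c • x) = ptF x := by
  have h' : hermForm 6 F 2 ((om : F) • x) ((om : F) • x) = 1 := by
    rw [herm_smul_smul, cube_eq_one om_ne_zero, h, one_mul]
  rcases ne_zero_cases hc with rfl | rfl | rfl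
  · rw [one_smul]
  · exact (point_facts h).2.1
  · rw [mul_smul, (point_facts h').2.1, (point_facts h).2.1]

/-- The representative of a point. -/
noncomputable def repF (i : Fin 672) : Fin 6 → F := vecF om (repC i.1)

theorem repF_unit (i : Fin 672) : hermForm 6 F 2 (repF i : Fin 6 → F) (repF i) = 1 := by
  have hp := points_ok
  simp only [pointsOK, Bool.and_eq_true, List.all_eq_true, List.mem_range] at hp
  exact (unitC_iff _).2 (hp.2 i.1 i.2).1

theorem ptF_repF (i : Fin 672) : ptF (repF i : Fin 6 → F) = i.1 := by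
  have hp := points_ok
  simp only [pointsOK, Bool.and_eq_true, List.all_eq_true, List.mem_range] at hp
  rw [repF, ptF_vecF]
  exact Nat.eq_of_beq_eq_true (hp.2 i.1 i.2).2

theorem unit_mulVec (g : SU6 F) {x : Fin 6 → F} (h : hermForm 6 F 2 x x = 1) :
    hermForm 6 F 2 (mat g *ᵥ x) (mat g *ᵥ x) = 1 := by rw [herm_mulVec, h]

/-- The point of a vector of norm one. -/
noncomputable def pt (x : Fin 6 → F) (h : hermForm 6 F 2 x x = 1) : Fin 672 := ⟨ptF x, (point_facts h).1⟩

/-- The action on points. -/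
noncomputable def act (g : SU6 F) (i : Fin 672) : Fin 672 :=
  pt (mat g *ᵥ (repF i : Fin 6 → F)) (unit_mulVec g (repF_unit i))

theorem act_pt (g : SU6 F) {x : Fin 6 → F} (h : hermForm 6 F 2 x x = 1) :
    act g (pt x h) = pt (mat g *ᵥ x) (unit_mulVec g h) := by
  obtain ⟨c, hc, e⟩ := (point_facts h).2.2
  refine Fin.ext ?_
  show ptF (mat g *ᵥ vecF om (repC (ptF x))) = ptF (mat g *ᵥ x)
  rw [e, Matrix.mulVec_smul, ptF_smul (unit_mulVec g h) hc]

theorem act_mul (g h : SU6 F) (i : Fin 672) : act (g * h) i = act g (act h i) := by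
  refine (Fin.ext ?_).trans (act_pt g (unit_mulVec h (repF_unit i))).symm
  show ptF (mat (g * h) *ᵥ repF i) = ptF (mat g *ᵥ (mat h *ᵥ repF i))
  rw [Matrix.mulVec_mulVec, mat_mul]

theorem act_one (i : Fin 672) : act (1 : SU6 F) i = i := Fin.ext (by
  show ptF (mat (1 : SU6 F) *ᵥ repF i) = i.1
  rw [mat_one, Matrix.one_mulVec, ptF_repF])

theorem act_injective (g : SU6 F) : Function.Injective (act g) := fun i j h => by
  have := congrArg (act g⁻¹) h
  rwa [← act_mul, ← act_mul, inv_mul_cancel, act_one, act_one] at this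

/-- The standard vectors. -/
noncomputable def eF (j : Fin 6) : Fin 6 → F := vecF om (1 <<< (2 * j.1))

theorem eF_eq_single (j : Fin 6) : (eF j : Fin 6 → F) = Pi.single j 1 := by
  funext i
  have h : ∀ i j : Fin 6, (1 <<< (2 * j.1) : ℕ).testBit (2 * i.1) = decide (i = j) ∧
      (1 <<< (2 * j.1) : ℕ).testBit (2 * i.1 + 1) = false := by decide
  by_cases e : i = j <;> simp [eF, vecF, h, e, fe, bF]

theorem eF_unit (j : Fin 6) : hermForm 6 F 2 (eF j : Fin 6 → F) (eF j) = 1 := by
  have : ∀ j : Fin 6, unitC (1 <<< (2 * j.1)) = true := by decide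
  exact (unitC_iff _).2 (this j)

/-- The points of the standard frame. -/
def p0 (j : Fin 6) : Fin 672 := ⟨ptC (1 <<< (2 * j.1)), by revert j; decide +kernel⟩

theorem p0_val (j : Fin 6) : (p0 j).1 = ptC (1 <<< (2 * j.1)) := rfl

theorem p0_eq (j : Fin 6) : p0 j = pt (eF j : Fin 6 → F) (eF_unit j) := Fin.ext (ptF_vecF _).symm

theorem p0_injective : Function.Injective p0 := by
  intro i j h
  have h' := congrArg Fin.val h
  rw [p0_val, p0_val] at h'
  have : ∀ i j : Fin 6, ptC (1 <<< (2 * i.1)) = ptC (1 <<< (2 * j.1)) → i = j := by decide +kernel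
  exact this i j h'

theorem col_eq (g : SU6 F) {A : ℕ} (hA : mat g = matF om A) (j : Fin 6) :
    mat g *ᵥ eF j = vecF om (colC A j.1) := by
  rw [eF_eq_single, Matrix.mulVec_single_one, hA, ← col_matF]
  rfl

theorem act_p0 (g : SU6 F) {A : ℕ} (hA : mat g = matF om A) (j : Fin 6) :
    (act g (p0 j)).1 = ptC (colC A j.1) := by
  rw [p0_eq (F := F), act_pt]
  show ptF (mat g *ᵥ eF j) = _
  rw [col_eq g hA, ptF_vecF]

/-- The frame of an element. -/
noncomputable def fr (g : SU6 F) : Finset (Fin 672) := Finset.univ.image fun j => act g (p0 j)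

theorem fr_mul (g h : SU6 F) : fr (g * h) = (fr h).image (act g) := by
  rw [fr, fr, Finset.image_image]
  exact Finset.image_congr fun j _ => act_mul g h _

theorem testBit_foldr (f : ℕ → ℕ) : ∀ (l : List ℕ) (n : ℕ),
    (l.foldr (fun j m => Nat.lor (1 <<< f j) m) 0).testBit n = l.any (fun j => decide (f j = n))
  | [], n => by simp
  | a :: l, n => by
    rw [List.foldr_cons, List.any_cons, ← testBit_foldr f l n,
      show ∀ a b, Nat.lor a b = a ||| b from fun _ _ => rfl, Nat.testBit_or, Nat.one_shiftLeft,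
      Nat.testBit_two_pow]

theorem testBit_frmC {g : SU6 F} {A : ℕ} (hA : mat g = matF om A) (n : ℕ) :
    (frmC A).testBit n = true ↔ ∃ i ∈ fr g, i.1 = n := by
  rw [frmC, testBit_foldr, List.any_eq_true]
  simp only [List.mem_range, decide_eq_true_eq, fr, Finset.mem_image, Finset.mem_univ, true_and]
  constructor
  · rintro ⟨j, hj, e⟩
    exact ⟨_, ⟨⟨j, hj⟩, rfl⟩, by rw [act_p0 g hA]; exact e⟩
  · rintro ⟨_, ⟨j, rfl⟩, e⟩
    exact ⟨j.1, j.2, by rw [← act_p0 g hA]; exact e⟩

theorem fr_eq_iff {g h : SU6 F} {A B : ℕ} (hA : mat g = matF om A) (hB : mat h = matF om B) :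
    fr g = fr h ↔ frmC A = frmC B := by
  constructor
  · intro e
    refine Nat.eq_of_testBit_eq fun n => Bool.eq_iff_iff.2 ?_
    rw [testBit_frmC hA, testBit_frmC hB, e]
  · intro e
    ext i
    have h1 := testBit_frmC hA i.1
    rw [e, testBit_frmC hB] at h1
    constructor
    · intro hi
      obtain ⟨k, hk, ek⟩ := h1.2 ⟨i, hi, rfl⟩
      rwa [← Fin.ext ek]
    · intro hi
      obtain ⟨k, hk, ek⟩ := h1.1 ⟨i, hi, rfl⟩
      rwa [← Fin.ext ek]

/-- The stabiliser of the standard frame. -/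
noncomputable def stab : Subgroup (SU6 F) where
  carrier := {g | fr g = fr 1}
  mul_mem' {a b} ha hb := by
    simp only [Set.mem_setOf_eq] at *
    rw [fr_mul, hb, ← fr_mul, mul_one, ha]
  one_mem' := rfl
  inv_mem' {a} ha := by
    simp only [Set.mem_setOf_eq] at *
    conv_rhs => rw [← inv_mul_cancel a, fr_mul, ha, ← fr_mul, mul_one]

theorem fr_mul_stab (g : SU6 F) {s : SU6 F} (hs : s ∈ stab) : fr (g * s) = fr g := by
  rw [fr_mul, show fr s = fr (1 : SU6 F) from hs, ← fr_mul, mul_one]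

theorem fr_eq_iff_mem {g h : SU6 F} : fr g = fr h ↔ h⁻¹ * g ∈ stab := by
  constructor
  · intro e
    show fr (h⁻¹ * g) = fr 1
    rw [fr_mul, e, ← fr_mul, inv_mul_cancel]
  · intro e
    have := fr_mul_stab h e
    rwa [mul_inv_cancel_left] at this

end Cfsg.Agent.H8.U62
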