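import Cfsg.Agent.H8.U62.Points

/-!
# Realising codes inside subgroups
-/

set_option autoImplicit false
set_option linter.unusedSectionVars false

namespace Cfsg.Agent.H8.U62

open Matrix Setup

variable {F : Type} [Setup F]

/-- The code is the matrix of an element of `H`. -/
def Real (H : Subgroup (SU6 F)) (A : ℕ) : Prop := ∃ g ∈ H, mat g = matF om A

theorem Real.one (H : Subgroup (SU6 F)) : Real H oneC :=
  ⟨1, H.one_mem, by rw [mat_one, matF_oneC _ hom two]⟩

theorem Real.mmC {H : Subgroup (SU6 F)} {A B : ℕ} (hA : Real H A) (hB : Real H B) : Real H (mmC A B) := by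
  obtain ⟨a, ha, ea⟩ := hA
  obtain ⟨b, hb, eb⟩ := hB
  exact ⟨a * b, H.mul_mem ha hb, by rw [matF_mmC _ hom two, ← ea, ← eb, mat_mul]⟩

theorem Real.mono {H K : Subgroup (SU6 F)} (hHK : H ≤ K) {A : ℕ} (hA : Real H A) : Real K A := by
  obtain ⟨a, ha, ea⟩ := hA
  exact ⟨a, hHK ha, ea⟩

theorem Real.mem {H : Subgroup (SU6 F)} {A : ℕ} (hA : Real H A) {g : SU6 F} (hg : mat g = matF om A) :
    g ∈ H := by
  obtain ⟨a, ha, ea⟩ := hA
  rwa [ext_mat (hg.trans ea.symm)]

theorem Real.getD {H : Subgroup (SU6 F)} {l : List ℕ} (h : ∀ A ∈ l, Real H A) (n : ℕ) :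
    Real H (l.getD n oneC) := by
  rw [List.getD_eq_getElem?_getD]
  cases e : l[n]? with
  | none => exact Real.one H
  | some A => exact h A (List.mem_of_getElem? e)

theorem real_bld {H : Subgroup (SU6 F)} {gens : List ℕ} (hg : ∀ A ∈ gens, Real H A) :
    ∀ (t : List (ℕ × ℕ)) (acc : List ℕ), (∀ A ∈ acc, Real H A) → ∀ A ∈ bld gens t acc, Real H A
  | [], acc, ha => ha
  | (p, g) :: t, acc, ha => by
    rw [bld, force_eq]
    refine real_bld hg t _ fun A hA => ?_
    rcases List.mem_append.1 hA with hA | hA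
    · exact ha A hA
    · rw [List.mem_singleton] at hA
      subst hA
      exact (Real.getD hg g).mmC (Real.getD ha p)

theorem real_bld_one {H : Subgroup (SU6 F)} {gens : List ℕ} (hg : ∀ A ∈ gens, Real H A) (t : List (ℕ × ℕ)) :
    ∀ A ∈ bld gens t [oneC], Real H A :=
  real_bld hg t _ fun A hA => by rw [List.mem_singleton] at hA; subst hA; exact Real.one H

theorem bld_length (gens : List ℕ) : ∀ (t : List (ℕ × ℕ)) (acc : List ℕ),
    (bld gens t acc).length = acc.length + t.length
  | [], acc => by simp [bld]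
  | (p, g) :: t, acc => by
    rw [bld, force_eq, bld_length gens t]
    simp [List.length_append]
    omega

theorem beqList_sound : ∀ {l m : List ℕ}, monOK.beqList l m = true → l = m
  | [], [], _ => rfl
  | [], _ :: _, h => by simp [monOK.beqList] at h
  | _ :: _, [], h => by simp [monOK.beqList] at h
  | a :: l, b :: m, h => by
    simp only [monOK.beqList, Bool.and_eq_true] at h
    rw [Nat.eq_of_beq_eq_true h.1, beqList_sound h.2]

theorem keysOK_sound : ∀ (l : List ℕ) (acc : ℕ), keysOK l acc = true →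
    l.Nodup ∧ ∀ m ∈ l, acc.testBit (m % keyMod) = false
  | [], acc, _ => by simp
  | v :: l, acc, h => by
    simp only [keysOK, force_eq, Bool.and_eq_true, Bool.not_eq_true'] at h
    obtain ⟨h1, h2⟩ := keysOK_sound l _ h.2
    have hlor : ∀ k, (Nat.lor acc (1 <<< (v % keyMod))).testBit k =
        (acc.testBit k || decide (v % keyMod = k)) := fun k => by
      rw [show ∀ a b, Nat.lor a b = a ||| b from fun _ _ => rfl, Nat.testBit_or, Nat.one_shiftLeft,
        Nat.testBit_two_pow]
    simp only [List.nodup_cons, List.forall_mem_cons]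
    refine ⟨⟨fun hm => ?_, h1⟩, h.1, fun k hk => ?_⟩
    · have := h2 _ hm
      simp at this
    · have := h2 k hk
      rw [hlor, Bool.or_eq_false_iff] at this
      exact this.1

/-- Distinct frames: the injective product map. -/
theorem card_mul_le_of_frames {H K : Subgroup (SU6 F)} (hs : H ≤ stab) (u : SU6 F)
    (hu : ∀ s ∈ H, u * s * u⁻¹ ∈ K) {n : ℕ} (h : Fin n → SU6 F) (hK : ∀ j, h j ∈ K)
    (hinj : Function.Injective fun j => fr (h j * u)) : n * Nat.card H ≤ Nat.card K := by
  have : Finite (SU6 F) := inferInstance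
  let ψ : Fin n × H → K := fun p => ⟨h p.1 * (u * p.2.1 * u⁻¹), K.mul_mem (hK p.1) (hu _ p.2.2)⟩
  have hψ : Function.Injective ψ := by
    rintro ⟨i, s⟩ ⟨j, t⟩ e
    have e' : h i * (u * s.1 * u⁻¹) = h j * (u * t.1 * u⁻¹) := congrArg Subtype.val e
    have hij : i = j := by
      refine hinj ?_
      show fr (h i * u) = fr (h j * u)
      have e2 : h i * u * s.1 = h j * u * t.1 := by
        calc h i * u * s.1 = h i * (u * s.1 * u⁻¹) * u := by group
          _ = h j * (u * t.1 * u⁻¹) * u := by rw [e']
          _ = h j * u * t.1 := by group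
      rw [← fr_mul_stab (h i * u) (hs s.2), ← fr_mul_stab (h j * u) (hs t.2), e2]
    subst hij
    have := mul_left_cancel e'
    simp only [mul_left_inj, mul_right_inj] at this
    exact Prod.ext rfl (Subtype.ext this)
  have := Nat.card_le_card_of_injective ψ hψ
  rwa [Nat.card_prod, Nat.card_fin] at this

/-- A tree of distinct frames bounds the order from below. -/
theorem treeOK_bound {H K : Subgroup (SU6 F)} (hs : H ≤ stab) {gens : List ℕ}
    (hg : ∀ A ∈ gens, Real K A) {t : List (ℕ × ℕ)} {base n : ℕ} (h : treeOK gens t base n = true)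
    {u : SU6 F} (hub : mat u = matF om base) (hu : ∀ s ∈ H, u * s * u⁻¹ ∈ K) :
    n * Nat.card H ≤ Nat.card K := by
  simp only [treeOK, Bool.and_eq_true] at h
  obtain ⟨hlen, hk⟩ := h
  have hnd := (keysOK_sound _ _ hk).1
  set L := bld gens t [oneC] with hL
  have hll : L.length = t.length + 1 := by rw [hL, bld_length]; simp; omega
  have hn : n ≤ L.length := by rw [hll]; exact Nat.le_of_ble_eq_true hlen
  have hreal : ∀ j : Fin L.length, Real K L[j.1] := fun j => real_bld_one hg t _ (List.getElem_mem _)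
  choose g hgK hgA using hreal
  refine le_trans (Nat.mul_le_mul_right _ hn) (card_mul_le_of_frames hs u hu g hgK ?_)
  intro i j e
  have e1 : frmC (mmC L[i.1] base) = frmC (mmC L[j.1] base) :=
    (fr_eq_iff (by rw [mat_mul, hgA, hub, matF_mmC _ hom two])
      (by rw [mat_mul, hgA, hub, matF_mmC _ hom two])).1 e
  refine Fin.ext ?_
  exact (hnd.getElem_inj_iff (hi := by rw [List.length_map]; exact i.2)
    (hj := by rw [List.length_map]; exact j.2)).1 (by rw [List.getElem_map, List.getElem_map]; exact e1)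

end Cfsg.Agent.H8.U62
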